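import Mathlib

/-!
An element of prime order `r` generating the extension of degree `ord_r q` of a field with `q` elements.
-/

set_option autoImplicit false

namespace Cfsg.Lib.Derange

universe u

variable {F : Type u} [Field F] [Fintype F]

/-- An extension of degree `ord_r q` containing an element of order `r`, with cyclic Galois orbit. -/
theorem exists_cyclo {p : ℕ} [Fact p.Prime] [CharP F p] {q : ℕ} (hq : Fintype.card F = q)
    (r : ℕ) [Fact r.Prime] (hrp : r ≠ p) :
    ∃ (K : Type) (_ : Field K) (_ : Fintype K) (_ : Algebra F K) (ζ : K),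
      Module.finrank F K = orderOf (q : ZMod r) ∧ 0 < orderOf (q : ZMod r) ∧ orderOf ζ = r ∧
      (∀ η : K, Polynomial.aeval η (minpoly F ζ) = 0 → ∃ j : ℕ, η = ζ ^ q ^ j) := by
  have hr : r.Prime := Fact.out
  have hne : (q : ZMod r) ≠ 0 := by
    rw [Ne, ZMod.natCast_eq_zero_iff]
    intro h
    obtain ⟨n, hpn, hn⟩ := FiniteField.card F p
    rw [← hq, hn] at h
    exact hrp ((Nat.prime_dvd_prime_iff_eq hr hpn).1 (hr.dvd_of_dvd_pow h))
  set e := orderOf (q : ZMod r) with he
  have he0 : 0 < e := orderOf_pos_iff.2 (isOfFinOrder_iff_pow_eq_one.2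
    ⟨r - 1, by have := hr.two_le; omega, ZMod.pow_card_sub_one_eq_one hne⟩)
  have : NeZero e := ⟨he0.ne'⟩
  let K := FiniteField.Extension F p e
  letI : Fintype K := Fintype.ofFinite K
  have hK : Fintype.card K = q ^ e := by
    rw [← Nat.card_eq_fintype_card, FiniteField.natCard_extension, Nat.card_eq_fintype_card, hq]
  have hdvd : r ∣ Nat.card Kˣ := by
    rw [Nat.card_units, Nat.card_eq_fintype_card, hK, ← ZMod.natCast_eq_zero_iff,
      Nat.cast_sub (Nat.one_le_pow _ _ (hq ▸ Fintype.card_pos)), Nat.cast_pow, pow_orderOf_eq_one]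
    simp
  obtain ⟨g, hg⟩ := exists_prime_orderOf_dvd_card' r hdvd
  refine ⟨K, inferInstance, inferInstance, inferInstance, (g : K), FiniteField.finrank_extension F p e, he0,
    by rw [orderOf_units, hg], fun η hη => ?_⟩
  obtain ⟨σ, hσ⟩ := minpoly.exists_algEquiv_of_root' (Algebra.IsAlgebraic.isAlgebraic (g : K)) hη
  obtain ⟨i, hi⟩ := FiniteField.exists_forall_apply_eq_pow F p K σ
  exact ⟨i, by rw [← hσ, hi, Nat.card_eq_fintype_card, hq]⟩

end Cfsg.Lib.Derange
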