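import Mathlib
import Cfsg.Agent.Lib.Derange.Cyclo
import Cfsg.Agent.Lib.Classical.FrameCount
import Cfsg.Agent.Lib.Classical.Symplectic

/-!
Elements of order `r` without fixed vectors; alternating forms have even rank.
-/

set_option autoImplicit false

namespace Cfsg.Lib.Derange

open Matrix Module

variable {F : Type*} [Field F] [Fintype F]

/-- If `ord_r q` divides `d` then `GL_d(q)` has an element of order `r` without nonzero fixed vectors. -/
theorem exists_fpf {p : ℕ} [Fact p.Prime] [CharP F p] {q : ℕ} (hq : Fintype.card F = q)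
    (r : ℕ) [Fact r.Prime] (hrp : r ≠ p) (d : ℕ) (hd : orderOf (q : ZMod r) ∣ d) :
    ∃ A : GL (Fin d) F, A ^ r = 1 ∧ (∀ v, (A : Matrix (Fin d) (Fin d) F) *ᵥ v = v → v = 0) ∧
      (∀ v, v ᵥ* (A : Matrix (Fin d) (Fin d) F) = v → v = 0) := by
  obtain ⟨K, _, _, _, ζ, hKe, he0, hζ, -⟩ := exists_cyclo (F := F) (p := p) hq r hrp
  obtain ⟨k, rfl⟩ := hd
  have hζr : ζ ^ r = 1 := hζ ▸ pow_orderOf_eq_one ζ
  have hζ1 : ζ - 1 ≠ 0 := sub_ne_zero.2 fun h => by
    rw [h, orderOf_one] at hζ
    exact (Fact.out : r.Prime).one_lt.ne hζ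
  set d := orderOf (q : ZMod r) * k
  let Φ : (Fin d → F) ≃ₗ[F] (Fin k → K) := LinearEquiv.ofFinrankEq _ _ (by
    rw [Module.finrank_fin_fun, Module.finrank_pi_fintype, Finset.sum_const, Finset.card_univ, Fintype.card_fin,
      hKe, smul_eq_mul, mul_comm])
  let T : (Fin k → K) →ₗ[F] (Fin k → K) := LinearMap.pi fun i => (Algebra.lmul F K ζ).comp (LinearMap.proj i)
  let X : (Fin d → F) →ₗ[F] (Fin d → F) := Φ.symm.toLinearMap ∘ₗ T ∘ₗ Φ.toLinearMap
  have hXm : ∀ v, (LinearMap.toMatrix' X) *ᵥ v = Φ.symm (T (Φ v)) := fun v => by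
    rw [LinearMap.toMatrix'_mulVec]; rfl
  have hpow : ∀ (s : ℕ) v, (LinearMap.toMatrix' X ^ s) *ᵥ v = Φ.symm (fun i => ζ ^ s * Φ v i) := fun s => by
    induction s with
    | zero => intro v; simp
    | succ s ih =>
      intro v
      rw [pow_succ', ← Matrix.mulVec_mulVec, ih, hXm, LinearEquiv.apply_symm_apply]
      congr 1
      funext i
      simp [T, pow_succ', mul_assoc]
  have h1 : LinearMap.toMatrix' X ^ r = 1 := Matrix.ext_iff_mulVec.2 fun v => by
    rw [hpow, Matrix.one_mulVec, hζr]; simp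
  have hu : IsUnit (LinearMap.toMatrix' X) := IsUnit.of_pow_eq_one h1 (Fact.out : r.Prime).ne_zero
  have hfix : ∀ v, LinearMap.toMatrix' X *ᵥ v = v → v = 0 := fun v hv => by
    have h := congrArg Φ hv
    rw [hXm, LinearEquiv.apply_symm_apply] at h
    refine Φ.injective (funext fun i => ?_)
    have hi := congrFun h i
    simp [T] at hi
    rw [map_zero, Pi.zero_apply]
    exact (mul_eq_zero.1 (show (ζ - 1) * Φ v i = 0 by linear_combination hi)).resolve_left hζ1
  refine ⟨hu.unit, Units.ext (by rw [Units.val_pow_eq_pow_val]; exact h1), hfix, fun v hv => ?_⟩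
  by_contra hv0
  obtain ⟨w, hw, hw'⟩ := Matrix.exists_mulVec_eq_zero_iff.2
    (Matrix.exists_vecMul_eq_zero_iff.1 ⟨v, hv0, show v ᵥ* (LinearMap.toMatrix' X - 1) = 0 by
      rw [Matrix.vecMul_sub, Matrix.vecMul_one]; exact sub_eq_zero.2 hv⟩)
  exact hw (hfix w (by rwa [Matrix.sub_mulVec, Matrix.one_mulVec, sub_eq_zero] at hw'))

omit [Fintype F] in
/-- An alternating form nondegenerate on a subspace forces even dimension. -/
theorem even_finrank_of_ndOn {V : Type*} [AddCommGroup V] [Module F V] [FiniteDimensional F V]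
    {β : LinearMap.BilinForm F V} (hA : β.IsAlt) :
    ∀ (n : ℕ) (W : Submodule F V), finrank F W = n → Cfsg.Lib.Classical.FrameCount.NdOn β W → Even n := by
  intro n
  induction n using Nat.strong_induction_on with
  | _ n ih =>
    intro W hWn hW
    by_cases hW0 : W = ⊥
    · subst hW0; simp at hWn; simp [← hWn]
    obtain ⟨e, he, he0⟩ := Submodule.exists_mem_ne_zero_of_ne_bot hW0
    obtain ⟨z, hz, hez⟩ := hW e he he0
    have hp : Cfsg.Lib.Classical.FrameCount.IsPair β (-1) W e ((β e z)⁻¹ • z) :=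
      ⟨he, W.smul_mem _ hz, hA e, hA _, by simp [hez], by
        rw [map_smul, LinearMap.smul_apply, Cfsg.Lib.Classical.alt_swap hA e z, smul_eq_mul, mul_neg, inv_mul_cancel₀ hez]⟩
    have hne : (-1 : F) ≠ 0 := neg_ne_zero.2 one_ne_zero
    have h2 := hp.finrank_eq hne
    have h3 := ih _ (by omega) _ rfl (hp.ndOn hne (fun x y h => by rw [Cfsg.Lib.Classical.alt_swap hA x y, h, neg_zero]) hW)
    rw [← hWn, h2]
    exact h3.add even_two

end Cfsg.Lib.Derange
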