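import Mathlib

/-!
Nonsingular lines of a quadratic form, and fixed-point counts for elements of prime order.
-/

set_option autoImplicit false

namespace Cfsg.Lib.Derange

open Module

variable {F V : Type*} [Field F] [AddCommGroup V] [Module F V]

/-- Nonsingular lines times `q - 1` is the number of nonsingular vectors. -/
theorem card_lines_mul [Fintype F] (Q : V → F) (hQ : ∀ (a : F) v, Q (a • v) = a * a * Q v) :
    Nat.card {W : Submodule F V // finrank F ↥W = 1 ∧ ∃ v ∈ W, Q v ≠ 0} * Nat.card Fˣ = Nat.card {v : V // Q v ≠ 0} := by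
  classical
  set L := {W : Submodule F V // finrank F ↥W = 1 ∧ ∃ v ∈ W, Q v ≠ 0}
  have hQ0 : Q 0 = 0 := by simpa using hQ 0 0
  let c : L → V := fun W => Classical.choose W.2.2
  have hc : ∀ W : L, c W ∈ W.1 ∧ Q (c W) ≠ 0 := fun W => Classical.choose_spec W.2.2
  have hc0 : ∀ W, c W ≠ 0 := fun W h => (hc W).2 (by rw [h, hQ0])
  have hspan : ∀ W : L, W.1 = F ∙ c W := fun W => by
    haveI : FiniteDimensional F W.1 := Module.finite_of_finrank_eq_succ W.2.1
    exact (Submodule.eq_of_le_of_finrank_eq ((Submodule.span_singleton_le_iff_mem _ _).2 (hc W).1)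
      (by rw [finrank_span_singleton (hc0 W), W.2.1])).symm
  let e : L × Fˣ → {v : V // Q v ≠ 0} := fun P =>
    ⟨(P.2 : F) • c P.1, by rw [hQ]; exact mul_ne_zero (mul_ne_zero P.2.ne_zero P.2.ne_zero) (hc P.1).2⟩
  rw [← Nat.card_prod]
  refine Nat.card_congr (Equiv.ofBijective e ⟨fun P P' h => ?_, fun v => ?_⟩)
  · have h' : (P.2 : F) • c P.1 = (P'.2 : F) • c P'.1 := congrArg Subtype.val h
    have hPP : P.1 = P'.1 := Subtype.ext (by
      rw [hspan P.1, hspan P'.1, ← Submodule.span_singleton_smul_eq P.2.isUnit, h',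
        Submodule.span_singleton_smul_eq P'.2.isUnit])
    refine Prod.ext hPP (Units.ext ?_)
    rw [hPP] at h'
    exact smul_left_injective F (hc0 _) h'
  · have hv0 : v.1 ≠ 0 := fun h => v.2 (by rw [h, hQ0])
    let W : L := ⟨F ∙ v.1, finrank_span_singleton hv0, v.1, Submodule.mem_span_singleton_self _, v.2⟩
    obtain ⟨l, hl⟩ := Submodule.mem_span_singleton.1
      (hspan W ▸ Submodule.mem_span_singleton_self v.1 : v.1 ∈ F ∙ c W)
    exact ⟨(W, Units.mk0 l fun h => hv0 (by rw [← hl, h, zero_smul])), Subtype.ext hl⟩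

/-- An isometry fixing a nonsingular line multiplies it by `±1`. -/
theorem line_sq (Q : V → F) (hQ : ∀ (a : F) v, Q (a • v) = a * a * Q v) (T : V →ₗ[F] V) (hT : ∀ v, Q (T v) = Q v)
    (W : Submodule F V) (hW : finrank F W = 1) (v : V) (hv : v ∈ W) (hQv : Q v ≠ 0) (hmap : W.map T ≤ W) :
    T v = v ∨ T v = -v := by
  haveI : FiniteDimensional F W := Module.finite_of_finrank_eq_succ hW
  have hv0 : v ≠ 0 := fun h => hQv (by rw [h]; simpa using hQ 0 0)
  have hWv : W = F ∙ v := (Submodule.eq_of_le_of_finrank_eq ((Submodule.span_singleton_le_iff_mem v W).2 hv)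
    (by rw [finrank_span_singleton hv0, hW])).symm
  obtain ⟨l, hl⟩ := Submodule.mem_span_singleton.1 (hWv ▸ hmap ⟨v, hv, rfl⟩)
  have h := hT v
  rw [← hl, hQ] at h
  have h' : l * l = 1 := mul_right_cancel₀ hQv (by rw [h, one_mul])
  rcases mul_self_eq_one_iff.1 h' with h | h
  · left; rw [← hl, h, one_smul]
  · right; rw [← hl, h, neg_one_smul]

/-- The codimension of the fixed space of an element of prime order `r` is a multiple of `ord_r q`. -/
theorem orderOf_dvd_codim [Fintype F] [FiniteDimensional F V] {q : ℕ} (hq : Fintype.card F = q) (r : ℕ) [Fact r.Prime]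
    (hr : (q : ZMod r) ≠ 0) (T : V →ₗ[F] V) (hT : T ^ r = 1) :
    orderOf (q : ZMod r) ∣ finrank F V - finrank F (LinearMap.ker (T - 1)) := by
  classical
  haveI : Finite V := Module.finite_of_finite F
  let u : (V →ₗ[F] V)ˣ := (IsUnit.of_pow_eq_one hT (Fact.out : r.Prime).ne_zero).unit
  let G := Subgroup.zpowers u
  letI : MulAction G V := MulAction.compHom V (G.subtype)
  have hG : IsPGroup r G := IsPGroup.of_card_dvd_pow (n := 1) (by
    rw [pow_one, Nat.card_zpowers]
    exact orderOf_dvd_of_pow_eq_one (Units.ext hT))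
  have h := hG.card_modEq_card_fixedPoints (α := V)
  have hfix : MulAction.fixedPoints G V = (LinearMap.ker (T - 1) : Set V) := by
    ext v
    simp only [MulAction.mem_fixedPoints, SetLike.mem_coe, LinearMap.mem_ker, LinearMap.sub_apply, Module.End.one_apply,
      sub_eq_zero]
    constructor
    · exact fun h => h ⟨u, Subgroup.mem_zpowers u⟩
    · rintro hv ⟨g, hg⟩
      obtain ⟨k, rfl⟩ := Subgroup.mem_zpowers_iff.1 hg
      show ((u ^ k : (V →ₗ[F] V)ˣ) : V →ₗ[F] V) v = v
      have hu : (u : V →ₗ[F] V) v = v := hv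
      induction k using Int.induction_on with
      | zero => simp
      | succ i ih => rw [zpow_add_one, Units.val_mul, Module.End.mul_apply, hu, ih]; exact Subgroup.zpow_mem _ (Subgroup.mem_zpowers u) _
      | pred i ih =>
        have hu' : ((u⁻¹ : (V →ₗ[F] V)ˣ) : V →ₗ[F] V) v = v := by
          conv_lhs => rw [← hu, ← Module.End.mul_apply, ← Units.val_mul, inv_mul_cancel, Units.val_one, Module.End.one_apply]
        rw [zpow_sub_one, Units.val_mul, Module.End.mul_apply, hu', ih]; exact Subgroup.zpow_mem _ (Subgroup.mem_zpowers u) _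
  have hc1 : Nat.card V = q ^ finrank F V := by rw [Module.natCard_eq_pow_finrank (K := F), Nat.card_eq_fintype_card, hq]
  have hc2 : Nat.card (MulAction.fixedPoints G V) = q ^ finrank F (LinearMap.ker (T - 1)) := by
    rw [Nat.card_congr (Equiv.setCongr hfix)]
    exact (Module.natCard_eq_pow_finrank (K := F) (V := LinearMap.ker (T - 1))).trans (by rw [Nat.card_eq_fintype_card, hq])
  rw [hc1, hc2, ← ZMod.natCast_eq_natCast_iff, Nat.cast_pow, Nat.cast_pow,
    ← Nat.sub_add_cancel (Submodule.finrank_le (LinearMap.ker (T - 1))), pow_add] at h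
  exact orderOf_dvd_of_pow_eq_one (mul_right_cancel₀ (pow_ne_zero _ hr) (by rw [h, one_mul]))

end Cfsg.Lib.Derange
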