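import Mathlib
import Cfsg.Agent.Lib.Derange.Lines

/-!
Invariant subspaces of linear maps of prime order.
-/

set_option autoImplicit false

namespace Cfsg.Lib.Derange

open Module Polynomial

variable {F V : Type*} [Field F] [AddCommGroup V] [Module F V]

/-- An invariant subspace can be enlarged by at most `e` dimensions when `T` is annihilated by a product of
polynomials of degree at most `e`. -/
theorem exists_step [FiniteDimensional F V] (T : V →ₗ[F] V) (e : ℕ) (gs : List F[X])
    (hgs : ∀ g ∈ gs, g.Monic ∧ g.natDegree ≤ e) (hann : aeval T gs.prod = 0)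
    (Z U : Submodule F V) (hZ : Z.map T ≤ Z) (hU : U.map T ≤ U) (hlt : Z < U) :
    ∃ W, Z < W ∧ W ≤ U ∧ W.map T ≤ W ∧ finrank F W ≤ finrank F Z + e := by
  classical
  obtain ⟨-, v, hvU, hvZ⟩ := SetLike.lt_iff_le_and_exists.1 hlt
  have hUp : ∀ (g : F[X]) w, w ∈ U → aeval T g w ∈ U := by
    intro g w hw
    induction g using Polynomial.induction_on with
    | C a => simp [Algebra.algebraMap_eq_smul_one, U.smul_mem a hw]
    | add g g' hg hg' => rw [map_add, LinearMap.add_apply]; exact U.add_mem hg hg'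
    | monomial k a ih =>
      rw [pow_succ', ← mul_assoc, mul_comm (C a), mul_assoc, map_mul, aeval_X, Module.End.mul_apply]
      exact hU ⟨_, ih, rfl⟩
  have key : ∀ (l : List F[X]), (∀ g ∈ l, g.Monic ∧ g.natDegree ≤ e) → (aeval T l.prod : V →ₗ[F] V) v ∈ Z →
      ∃ (g : F[X]) (w : V), (g.Monic ∧ g.natDegree ≤ e) ∧ w ∈ U ∧ w ∉ Z ∧ (aeval T g : V →ₗ[F] V) w ∈ Z := by
    intro l
    induction l with
    | nil => intro _ h; simp at h; exact absurd h hvZ
    | cons g l ih =>
      intro hl h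
      by_cases hin : aeval T l.prod v ∈ Z
      · exact ih (fun g hg => hl g (List.mem_cons_of_mem _ hg)) hin
      · rw [List.prod_cons, map_mul, Module.End.mul_apply] at h
        exact ⟨g, _, hl g (List.mem_cons_self ..), hUp _ v hvU, hin, h⟩
  obtain ⟨g, w, ⟨hg, hge⟩, hwU, hwZ, hgw⟩ := key gs hgs (by rw [hann]; simp)
  let S : Submodule F V := Submodule.span F (Set.range fun i : Fin g.natDegree => (T ^ (i : ℕ)) w)
  have hTpow : ∀ k : ℕ, (T ^ k) w ∈ U := fun k => by simpa using hUp (X ^ k) w hwU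
  have hdeg : 0 < g.natDegree := Nat.pos_of_ne_zero fun h => hwZ (by
    rw [eq_one_of_monic_natDegree_zero hg h] at hgw; simpa using hgw)
  have hwS : w ∈ S := Submodule.subset_span ⟨⟨0, hdeg⟩, by simp⟩
  have htop : (T ^ g.natDegree) w ∈ Z ⊔ S := by
    have h : aeval T g w = (T ^ g.natDegree) w + ∑ i : Fin g.natDegree, g.coeff i • (T ^ (i : ℕ)) w := by
      rw [aeval_eq_sum_range, Finset.sum_range_succ, hg.coeff_natDegree, one_smul, LinearMap.add_apply,
        LinearMap.sum_apply, add_comm, Finset.sum_range]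
      rfl
    rw [eq_sub_of_add_eq h.symm]
    exact Submodule.sub_mem _ (Submodule.mem_sup_left hgw) (Submodule.mem_sup_right
      (S.sum_mem fun i _ => S.smul_mem _ (Submodule.subset_span ⟨i, rfl⟩)))
  refine ⟨Z ⊔ S, ?_, sup_le hlt.le (Submodule.span_le.2 (by rintro _ ⟨i, rfl⟩; exact hTpow i)), ?_, ?_⟩
  · exact lt_of_le_of_ne le_sup_left fun h => hwZ (h ▸ Submodule.mem_sup_right hwS)
  · rw [Submodule.map_sup]
    refine sup_le (hZ.trans le_sup_left) ?_
    rw [Submodule.map_span_le]
    rintro _ ⟨i, rfl⟩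
    show T ((T ^ (i : ℕ)) w) ∈ Z ⊔ S
    rw [← Module.End.mul_apply, ← pow_succ']
    rcases Nat.lt_or_ge ((i : ℕ) + 1) g.natDegree with h | h
    · exact Submodule.mem_sup_right (Submodule.subset_span ⟨⟨_, h⟩, rfl⟩)
    · have := i.isLt
      rw [show (i : ℕ) + 1 = g.natDegree by omega]
      exact htop
  · refine (Submodule.finrank_add_le_finrank_add_finrank Z S).trans (Nat.add_le_add_left ?_ _)
    exact ((finrank_range_le_card _).trans (le_of_eq (Fintype.card_fin _))).trans hge

/-- Enlarging to any multiple of `e`. -/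
theorem exists_extend [FiniteDimensional F V] (T : V →ₗ[F] V) (e : ℕ) (gs : List F[X])
    (hgs : ∀ g ∈ gs, g.Monic ∧ g.natDegree ≤ e) (hann : aeval T gs.prod = 0)
    (U : Submodule F V) (hU : U.map T ≤ U) (hdvd : ∀ W ≤ U, W.map T ≤ W → e ∣ finrank F W)
    (Z : Submodule F V) (hZU : Z ≤ U) (hZ : Z.map T ≤ Z) (a : ℕ) (hZa : finrank F Z = a * e) :
    ∀ b, a ≤ b → b * e ≤ finrank F U → ∃ W, Z ≤ W ∧ W ≤ U ∧ W.map T ≤ W ∧ finrank F W = b * e := by
  intro b hab
  induction b, hab using Nat.le_induction with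
  | base => exact fun _ => ⟨Z, le_rfl, hZU, hZ, hZa⟩
  | succ b hab ih =>
    intro hb
    rcases Nat.eq_zero_or_pos e with he | he
    · exact ⟨Z, le_rfl, hZU, hZ, by simpa [he] using hZa⟩
    obtain ⟨W, hZW, hWU, hW, hWb⟩ := ih (by rw [Nat.succ_mul] at hb; omega)
    have hlt : W < U := lt_of_le_of_ne hWU fun h => by rw [h] at hWb; rw [Nat.succ_mul] at hb; omega
    obtain ⟨W', hWW', hW'U, hW', hdim⟩ := exists_step T e gs hgs hann W U hW hU hlt
    refine ⟨W', hZW.trans hWW'.le, hW'U, hW', ?_⟩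
    obtain ⟨c, hc⟩ := hdvd W' hW'U hW'
    have h1 := Submodule.finrank_lt_finrank_of_lt hWW'
    rw [hWb, hc] at h1 hdim
    rw [hc, mul_comm]
    congr 1
    have h2 : e * b < e * c := by linarith
    have h3 : e * c ≤ e * (b + 1) := by linarith
    have := Nat.lt_of_mul_lt_mul_left h2
    have := Nat.le_of_mul_le_mul_left h3 he
    omega

variable [Fintype F] {q : ℕ}

/-- Monic factors of degree at most `ord_r q` annihilating an element of order dividing `r`. -/
theorem exists_factors (hq : Fintype.card F = q) (r : ℕ) [Fact r.Prime] (hr : (q : ZMod r) ≠ 0)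
    (T : V →ₗ[F] V) (hT : T ^ r = 1) :
    ∃ gs : List F[X], (∀ g ∈ gs, g.Monic ∧ g.natDegree ≤ orderOf (q : ZMod r)) ∧ aeval T gs.prod = 0 := by
  classical
  set e := orderOf (q : ZMod r) with he
  have he0 : 0 < e := orderOf_pos_iff.2 (isOfFinOrder_iff_pow_eq_one.2
    ⟨r - 1, by have := (Fact.out : r.Prime).two_le; omega, ZMod.pow_card_sub_one_eq_one hr⟩)
  set P : F[X] := X ^ r - C 1
  have hP : P.Monic := monic_X_pow_sub_C 1 (Fact.out : r.Prime).ne_zero
  refine ⟨(UniqueFactorizationMonoid.normalizedFactors P).toList, fun g hg => ?_, ?_⟩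
  · rw [Multiset.mem_toList] at hg
    have hirr := UniqueFactorizationMonoid.irreducible_of_normalized_factor g hg
    have hmon : g.Monic := by
      rw [← UniqueFactorizationMonoid.normalize_normalized_factor g hg]
      exact monic_normalize hirr.ne_zero
    refine ⟨hmon, Nat.le_of_dvd he0 (hirr.natDegree_dvd_of_dvd_X_pow_card_pow_sub_X ?_)⟩
    rw [Nat.card_eq_fintype_card, hq]
    refine (UniqueFactorizationMonoid.dvd_of_mem_normalizedFactors hg).trans ?_
    have hqpos : 0 < q := hq ▸ Fintype.card_pos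
    obtain ⟨k, hk⟩ : r ∣ q ^ e - 1 := by
      rw [← ZMod.natCast_eq_zero_iff, Nat.cast_sub (Nat.one_le_pow _ _ hqpos), Nat.cast_pow, he, pow_orderOf_eq_one]
      simp
    have h1 : P ∣ X ^ (r * k) - 1 := by
      simp only [P, map_one, pow_mul]
      simpa using sub_dvd_pow_sub_pow ((X : F[X]) ^ r) 1 k
    refine h1.trans ⟨X, ?_⟩
    rw [← hk, sub_mul, one_mul, ← pow_succ, Nat.sub_add_cancel (Nat.one_le_pow _ _ hqpos)]
  · obtain ⟨u, hu⟩ := UniqueFactorizationMonoid.prod_normalizedFactors hP.ne_zero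
    rw [Multiset.prod_toList]
    have h : aeval T P = 0 := by simp [P, hT]
    rw [← hu, map_mul] at h
    exact (((Units.isUnit u).map (aeval T)).mul_left_eq_zero).1 h

/-- The dimension of an invariant subspace modulo its fixed part. -/
theorem exists_dim [FiniteDimensional F V] (hq : Fintype.card F = q) (r : ℕ) [Fact r.Prime] (hr : (q : ZMod r) ≠ 0)
    (T : V →ₗ[F] V) (hT : T ^ r = 1) (W : Submodule F V) (hW : W.map T ≤ W) :
    ∃ c, finrank F W = finrank F (W ⊓ LinearMap.ker (T - 1) : Submodule F V) + orderOf (q : ZMod r) * c := by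
  have hmaps : ∀ z ∈ W, T z ∈ W := fun z hz => hW ⟨z, hz, rfl⟩
  have hTW : (T.restrict hmaps) ^ r = 1 := by
    rw [Module.End.pow_restrict r hmaps]
    exact LinearMap.ext fun z => Subtype.ext (by simp [LinearMap.restrict_apply, hT])
  obtain ⟨c, hc⟩ := orderOf_dvd_codim hq r hr (T.restrict hmaps) hTW
  have hker : (LinearMap.ker (T.restrict hmaps - 1)).map W.subtype = W ⊓ LinearMap.ker (T - 1) := by
    ext z
    simp [LinearMap.restrict_apply, sub_eq_zero, Subtype.ext_iff, and_comm]
  have hker' : finrank F (LinearMap.ker (T.restrict hmaps - 1)) = finrank F (W ⊓ LinearMap.ker (T - 1) : Submodule F V) := by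
    rw [← hker]; exact (Submodule.equivMapOfInjective _ W.injective_subtype _).finrank_eq
  have := Submodule.finrank_le (LinearMap.ker (T.restrict hmaps - 1))
  exact ⟨c, by rw [← hker']; omega⟩

/-- Nested invariant subspaces of prescribed dimensions for an element of prime order. -/
theorem exists_pair [FiniteDimensional F V] (hq : Fintype.card F = q) (r : ℕ) [Fact r.Prime] (hr : (q : ZMod r) ≠ 0)
    (hrF : (r : F) ≠ 0)
    (T : V →ₗ[F] V) (hT : T ^ r = 1) (s u s' u' : ℕ) (hs : s ≤ s') (hu : u ≤ u')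
    (hu' : u' ≤ finrank F (LinearMap.ker (T - 1)))
    (hs' : s' * orderOf (q : ZMod r) ≤ finrank F V - finrank F (LinearMap.ker (T - 1))) :
    ∃ A B : Submodule F V, A ≤ B ∧ A.map T ≤ A ∧ B.map T ≤ B ∧
      finrank F A = s * orderOf (q : ZMod r) + u ∧ finrank F B = s' * orderOf (q : ZMod r) + u' := by
  classical
  set e := orderOf (q : ZMod r)
  set K := LinearMap.ker (T - 1) with hK
  set U := LinearMap.range (T - 1) with hU
  obtain ⟨gs, hgs, hann⟩ := exists_factors hq r hr T hT
  have hfix : ∀ v ∈ K, T v = v := fun v hv => by simpa [hK, sub_eq_zero] using hv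
  have hdisj : Disjoint U K := by
    rw [Submodule.disjoint_def]
    rintro v ⟨w, rfl⟩ hv
    have hv' := hfix _ hv
    have hpow : ∀ i : ℕ, (T ^ i) w = w + (i : F) • (T - 1) w := fun i => by
      induction i with
      | zero => simp
      | succ i ih =>
        rw [pow_succ', Module.End.mul_apply, ih, map_add, map_smul, hv', Nat.cast_succ, add_smul, one_smul]
        simp only [LinearMap.sub_apply, Module.End.one_apply]
        abel
    have h := hpow r
    rw [hT, Module.End.one_apply, left_eq_add, smul_eq_zero] at h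
    exact h.resolve_left hrF
  have hUinv : U.map T ≤ U := by
    rintro _ ⟨_, ⟨w, rfl⟩, rfl⟩
    exact ⟨T w, by simp⟩
  have hdvd : ∀ W ≤ U, W.map T ≤ W → e ∣ finrank F W := by
    intro W hWU hW
    obtain ⟨c, hc⟩ := exists_dim hq r hr T hT W hW
    have : W ⊓ LinearMap.ker (T - 1) = ⊥ := (hdisj.mono_left hWU).eq_bot
    rw [this, finrank_bot, zero_add] at hc
    exact ⟨c, hc⟩
  have hUdim : finrank F U = finrank F V - finrank F K := by
    have : finrank F U + finrank F K = finrank F V := LinearMap.finrank_range_add_finrank_ker (T - 1)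
    omega
  obtain ⟨A₁, -, hA₁U, hA₁, hA₁d⟩ := exists_extend T e gs hgs hann U hUinv hdvd ⊥ bot_le (by simp) 0 (by simp) s (Nat.zero_le _)
    (by rw [hUdim]; exact le_trans (Nat.mul_le_mul_right _ hs) hs')
  obtain ⟨B₁, hAB, hB₁U, hB₁, hB₁d⟩ := exists_extend T e gs hgs hann U hUinv hdvd A₁ hA₁U hA₁ s hA₁d s' hs
    (by rw [hUdim]; exact hs')
  let b := Module.finBasis F K
  let sp : (k : ℕ) → k ≤ finrank F K → Submodule F V := fun k hk =>
    Submodule.span F (Set.range fun i : Fin k => (b (Fin.castLE hk i) : V))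
  have hspK : ∀ k hk, sp k hk ≤ K := fun k hk => Submodule.span_le.2 (by rintro _ ⟨i, rfl⟩; exact (b _).2)
  have hspd : ∀ k hk, finrank F (sp k hk) = k := fun k hk => by
    rw [finrank_span_eq_card (show LinearIndependent F (fun i : Fin k => (b (Fin.castLE hk i) : V)) from
      (b.linearIndependent.map' _ K.ker_subtype).comp _ (Fin.castLE_injective hk)), Fintype.card_fin]
  have hspinv : ∀ k hk, (sp k hk).map T ≤ sp k hk := fun k hk => by
    rintro _ ⟨v, hv, rfl⟩
    rwa [hfix v (hspK k hk hv)]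
  have hdim : ∀ (A : Submodule F V) k hk, A ≤ U → finrank F (A ⊔ sp k hk : Submodule F V) = finrank F A + k := by
    intro A k hk hA
    have h := Submodule.finrank_sup_add_finrank_inf_eq A (sp k hk)
    rw [((hdisj.mono_left hA).mono_right (hspK k hk)).eq_bot, finrank_bot, hspd] at h
    simpa using h
  refine ⟨A₁ ⊔ sp u (hu.trans hu'), B₁ ⊔ sp u' hu', sup_le_sup hAB (Submodule.span_mono ?_), ?_, ?_, ?_, ?_⟩
  · rintro _ ⟨i, rfl⟩
    exact ⟨Fin.castLE hu i, rfl⟩
  · rw [Submodule.map_sup]; exact sup_le_sup hA₁ (hspinv _ _)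
  · rw [Submodule.map_sup]; exact sup_le_sup hB₁ (hspinv _ _)
  · rw [hdim _ _ _ hA₁U, hA₁d]
  · rw [hdim _ _ _ hB₁U, hB₁d]

end Cfsg.Lib.Derange
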