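import Mathlib
import Cfsg.Agent.Lib.Derange.Invariant
import Cfsg.Agent.Lib.Derange.Block

/-!
Linear maps whose `r`-th power is a scalar.
-/

set_option autoImplicit false

namespace Cfsg.Lib.Derange

open Module Polynomial

variable {F V : Type*} [Field F] [AddCommGroup V] [Module F V] [FiniteDimensional F V]

/-- Invariant subspaces have dimension divisible by `r` when the scalar is not an `r`-th power. -/
theorem dvd_finrank_of_nonpower (r : ℕ) (hr : r.Prime) {c : F} (hc : ∀ b, b ^ r ≠ c)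
    (T : V →ₗ[F] V) (hT : T ^ r = c • 1) (W : Submodule F V) (hW : W.map T ≤ W) : r ∣ finrank F W := by
  by_contra hd
  have hmaps : ∀ z ∈ W, T z ∈ W := fun z hz => hW ⟨z, hz, rfl⟩
  have hTW : (T.restrict hmaps) ^ r = c • 1 := by
    rw [Module.End.pow_restrict r hmaps]
    exact LinearMap.ext fun z => Subtype.ext (by simp [LinearMap.restrict_apply, hT])
  have h := congrArg LinearMap.det hTW
  rw [map_pow, LinearMap.det_smul, map_one, mul_one] at h
  set w := finrank F W
  have hcop : Nat.Coprime w r := (hr.coprime_iff_not_dvd.2 hd).symm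
  have hc0 : c ≠ 0 := fun h0 => hc 0 (by rw [h0, zero_pow hr.ne_zero])
  -- write `1 = a w + b r`
  have hb := Nat.gcd_eq_gcd_ab w r
  rw [Nat.coprime_iff_gcd_eq_one.1 hcop] at hb
  push_cast at hb
  refine hc ((LinearMap.det (T.restrict hmaps)) ^ (Nat.gcdA w r) * c ^ (Nat.gcdB w r)) ?_
  rw [mul_pow, ← zpow_natCast, ← zpow_natCast (c ^ (Nat.gcdB w r)), ← zpow_mul, ← zpow_mul, mul_comm (Nat.gcdA w r),
    zpow_mul, zpow_natCast, h, ← zpow_natCast c w, ← zpow_mul, ← zpow_add₀ hc0, mul_comm (Nat.gcdB w r), ← hb, zpow_one]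

/-- The determinant of such a map. -/
theorem det_of_nonpower (r : ℕ) (hr : r.Prime) {c : F} (hc : ∀ b, b ^ r ≠ c) (T : V →ₗ[F] V) (hT : T ^ r = c • 1) :
    LinearMap.det T = ((-1) ^ (r + 1) * c) ^ (finrank F V / r) := by
  classical
  have hirr : Irreducible (X ^ r - C c) := (X_pow_sub_C_irreducible_iff_of_prime hr).2 hc
  haveI := Fact.mk hirr
  let P : F[X] := X ^ r - C c
  let L := AdjoinRoot P
  have hP0 : P ≠ 0 := hirr.ne_zero
  let pb := AdjoinRoot.powerBasis hP0
  haveI : Module.Finite F L := pb.finite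
  have hdim : finrank F L = r := by
    rw [pb.finrank, AdjoinRoot.powerBasis_dim, natDegree_X_pow_sub_C]
  have hroot : aeval T P = (0 : Module.End F V) := by simp [P, hT, Algebra.algebraMap_eq_smul_one]
  let φ : L →ₐ[F] Module.End F V := Ideal.Quotient.liftₐ (Ideal.span {P}) (aeval T) (fun g hg => by
    obtain ⟨g', rfl⟩ := Ideal.mem_span_singleton'.1 hg
    rw [map_mul, hroot, mul_zero])
  letI : Module L V := Module.compHom V φ.toRingHom
  haveI : IsScalarTower F L V := ⟨fun a l v => by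
    show φ (a • l) v = a • φ l v
    rw [map_smul]; rfl⟩
  haveI : Module.Finite L V := Module.Finite.of_restrictScalars_finite F L V
  let b := Module.finBasis L V
  set k := finrank L V
  have hn : finrank F V = r * k := by rw [← hdim, Module.finrank_mul_finrank]
  let e : V ≃ₗ[F] (Fin k → L) := b.equivFun.restrictScalars F
  have hconj : T = e.symm.toLinearMap ∘ₗ (LinearMap.pi fun i => (Algebra.lmul F L (AdjoinRoot.root P)).comp (LinearMap.proj i)) ∘ₗ e.toLinearMap := by
    refine LinearMap.ext fun v => e.injective ?_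
    simp only [LinearMap.comp_apply, LinearEquiv.coe_coe, LinearEquiv.apply_symm_apply]
    funext i
    have h : T v = AdjoinRoot.root P • v := by
      show T v = φ (AdjoinRoot.root P) v
      show T v = (aeval T (X : F[X]) : Module.End F V) v
      rw [aeval_X]
    rw [h]
    simp [e]
  rw [hconj]
  refine (LinearMap.det_conj _ e.symm).trans ?_
  rw [LinearMap.det_pi, Finset.prod_const, Finset.card_univ, Fintype.card_fin, hn, Nat.mul_div_cancel_left k hr.pos]
  congr 1
  show Algebra.norm F (AdjoinRoot.root P) = _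
  rw [← AdjoinRoot.powerBasis_gen hP0, Algebra.PowerBasis.norm_gen_eq_coeff_zero_minpoly, AdjoinRoot.powerBasis_gen,
    AdjoinRoot.powerBasis_dim, AdjoinRoot.minpoly_root hP0]
  simp [P, natDegree_X_pow_sub_C, leadingCoeff_X_pow_sub_C hr.pos, coeff_X_pow, hr.ne_zero.symm, pow_succ]

omit [FiniteDimensional F V] in
/-- A map with given scalar `r`-th power. -/
theorem exists_nonpower_map (r k : ℕ) (hr : r.Prime) {c : F} (hc : ∀ b, b ^ r ≠ c) :
    ∃ T : (Fin (r * k) → F) →ₗ[F] (Fin (r * k) → F), T ^ r = c • 1 := by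
  classical
  have hirr : Irreducible (X ^ r - C c) := (X_pow_sub_C_irreducible_iff_of_prime hr).2 hc
  haveI := Fact.mk hirr
  let P : F[X] := X ^ r - C c
  let L := AdjoinRoot P
  let pb := AdjoinRoot.powerBasis hirr.ne_zero
  haveI : Module.Finite F L := pb.finite
  have hdim : finrank F L = r := by
    rw [pb.finrank, AdjoinRoot.powerBasis_dim, natDegree_X_pow_sub_C]
  let e : (Fin (r * k) → F) ≃ₗ[F] (Fin k → L) := LinearEquiv.ofFinrankEq _ _ (by
    rw [Module.finrank_fin_fun, Module.finrank_pi_fintype, Finset.sum_const, Finset.card_univ, Fintype.card_fin, hdim,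
      smul_eq_mul, mul_comm])
  let A : (Fin k → L) →ₗ[F] (Fin k → L) := LinearMap.pi fun i => (Algebra.lmul F L (AdjoinRoot.root P)).comp (LinearMap.proj i)
  refine ⟨e.symm.toLinearMap ∘ₗ A ∘ₗ e.toLinearMap, LinearMap.ext fun v => ?_⟩
  have hpow : ∀ j : ℕ, ((e.symm.toLinearMap ∘ₗ A ∘ₗ e.toLinearMap) ^ j) v = e.symm (fun i => AdjoinRoot.root P ^ j * e v i) := fun j => by
    induction j with
    | zero => simp
    | succ j ih =>
      rw [pow_succ', Module.End.mul_apply, ih]
      simp only [LinearMap.comp_apply, LinearEquiv.coe_coe, LinearEquiv.apply_symm_apply]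
      congr 1
      funext i
      simp [A, pow_succ', mul_assoc]
  have hroot : AdjoinRoot.root P ^ r = algebraMap F L c := by
    have h := AdjoinRoot.eval₂_root P
    simp only [P, eval₂_sub, eval₂_X_pow, eval₂_C, sub_eq_zero] at h
    exact h
  rw [hpow, hroot, LinearMap.smul_apply, Module.End.one_apply]
  apply e.injective
  rw [LinearEquiv.apply_symm_apply, map_smul]
  funext i
  simp [Algebra.smul_def]

variable [Fintype F] {q : ℕ}

omit [FiniteDimensional F V] in
/-- In a finite field an element killed by `(q-1)/r` is an `r`-th power. -/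
theorem exists_root (hq : Fintype.card F = q) {r : ℕ} (hr : r ∣ q - 1) {c : F} (hc0 : c ≠ 0)
    (h : c ^ ((q - 1) / r) = 1) : ∃ b : F, b ^ r = c := by
  classical
  obtain ⟨g, hg⟩ := IsCyclic.exists_generator (α := Fˣ)
  obtain ⟨j, hj⟩ := (mem_powers_iff_mem_zpowers.2 (hg (Units.mk0 c hc0)))
  have hj' : g ^ j = Units.mk0 c hc0 := hj
  have ho : orderOf g = q - 1 := by
    rw [orderOf_eq_card_of_forall_mem_zpowers hg, Nat.card_units, Nat.card_eq_fintype_card, hq]
  obtain ⟨t, ht⟩ := hr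
  have hqpos : 1 < q := hq ▸ Fintype.one_lt_card
  have hr0 : 0 < r := Nat.pos_of_ne_zero fun h0 => by rw [h0, zero_mul] at ht; omega
  have ht0 : 0 < t := Nat.pos_of_ne_zero fun h0 => by rw [h0, mul_zero] at ht; omega
  rw [ht, Nat.mul_div_cancel_left t hr0] at h
  have h1 : g ^ (j * t) = 1 := by
    rw [pow_mul, hj']
    exact Units.ext (by simpa using h)
  have h2 := orderOf_dvd_of_pow_eq_one h1
  rw [ho, ht, Nat.mul_dvd_mul_iff_right ht0] at h2
  obtain ⟨s, hs⟩ := h2
  refine ⟨((g ^ s : Fˣ) : F), ?_⟩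
  rw [← Units.val_pow_eq_pow_val, ← pow_mul, mul_comm s r, ← hs, hj']
  rfl

omit [FiniteDimensional F V] in
/-- When a nonpower scalar can occur with determinant one. -/
theorem exists_nonpower_iff (hq : Fintype.card F = q) (r n : ℕ) [Fact r.Prime] (hr1 : r ∣ q - 1) (hn : 0 < n) :
    (r ∣ n ∧ ∃ c : F, (∀ b, b ^ r ≠ c) ∧ ((-1) ^ (r + 1) * c) ^ (n / r) = 1) ↔
      ¬ (padicValNat r n ≤ padicValNat r (q - 1) ∧ (r = 2 → Even n → q % 4 = 1)) := by
  classical
  have hr : r.Prime := Fact.out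
  have hqpos : 1 < q := hq ▸ Fintype.one_lt_card
  by_cases hrn : r ∣ n
  swap
  · refine ⟨fun h => absurd h.1 hrn, fun h => absurd ⟨?_, fun h2 he => absurd (h2 ▸ even_iff_two_dvd.1 he) hrn⟩ h⟩
    rw [padicValNat.eq_zero_of_not_dvd hrn]
    exact Nat.zero_le _
  obtain ⟨k, rfl⟩ := hrn
  have hk : 0 < k := Nat.pos_of_ne_zero fun h => by simp [h] at hn
  rw [Nat.mul_div_cancel_left k hr.pos, padicValNat.mul hr.ne_zero hk.ne', padicValNat.self hr.one_lt]
  set a := padicValNat r (q - 1) with ha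
  have ha1 : 1 ≤ a := one_le_padicValNat_of_dvd (by omega) hr1
  -- an element of exact order `r ^ a`
  obtain ⟨g, hg⟩ := IsCyclic.exists_generator (α := Fˣ)
  have ho : orderOf g = q - 1 := by
    rw [orderOf_eq_card_of_forall_mem_zpowers hg, Nat.card_units, Nat.card_eq_fintype_card, hq]
  obtain ⟨M, hM⟩ : r ^ a ∣ q - 1 := pow_padicValNat_dvd
  have hM0 : M ≠ 0 := fun h => by rw [h, mul_zero] at hM; omega
  have hrM : ¬ r ∣ M := fun h => by
    obtain ⟨M', rfl⟩ := h
    exact pow_succ_padicValNat_not_dvd (p := r) (n := q - 1) (by omega) ⟨M', by rw [← ha, hM]; ring⟩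
  set z : F := ((g ^ M : Fˣ) : F)
  have hzo : orderOf z = r ^ a := by
    rw [orderOf_units, orderOf_pow_of_dvd hM0 (ho ▸ ⟨r ^ a, by rw [hM]; ring⟩), ho, hM,
      Nat.mul_div_cancel _ (Nat.pos_of_ne_zero hM0)]
  have hzpow : ∀ b : F, b ^ r ≠ z := fun b hb => by
    have hb0 : b ≠ 0 := fun h => by rw [h, zero_pow hr.ne_zero] at hb; exact (Units.ne_zero _) hb.symm
    have h1 : z ^ ((q - 1) / r) = 1 := by
      rw [← hb, ← pow_mul, Nat.mul_div_cancel' hr1, ← hq, FiniteField.pow_card_sub_one_eq_one _ hb0]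
    have h2 := orderOf_dvd_of_pow_eq_one h1
    rw [hzo] at h2
    have h3 : r ^ (a + 1) ∣ q - 1 := by
      rw [← Nat.mul_div_cancel' hr1, pow_succ']; exact Nat.mul_dvd_mul_left r h2
    exact pow_succ_padicValNat_not_dvd (p := r) (n := q - 1) (by omega) h3
  -- nonpowers of trivial `k`-th power
  have key : (∃ c : F, (∀ b, b ^ r ≠ c) ∧ c ^ k = 1) ↔ a ≤ padicValNat r k := by
    constructor
    · rintro ⟨c, hc, hck⟩
      by_contra hlt
      push Not at hlt
      have hc0 : c ≠ 0 := fun h => hc 0 (by rw [h, zero_pow hr.ne_zero])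
      have h1 : orderOf c ∣ Nat.gcd k (q - 1) := Nat.dvd_gcd (orderOf_dvd_of_pow_eq_one hck)
        (orderOf_dvd_of_pow_eq_one (hq ▸ FiniteField.pow_card_sub_one_eq_one _ hc0))
      have h2 : Nat.gcd k (q - 1) ∣ (q - 1) / r := by
        set G := Nat.gcd k (q - 1) with hG
        obtain ⟨t, ht⟩ := Nat.gcd_dvd_right k (q - 1)
        rw [← hG] at ht
        have hrt : r ∣ t := by
          by_contra hrt
          have h4 : r ^ a ∣ G * t := ht ▸ ⟨M, hM⟩
          have h5 : r ^ a ∣ G := ((Nat.Coprime.pow_left a (hr.coprime_iff_not_dvd.2 hrt))).dvd_of_dvd_mul_right h4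
          have h6 : a ≤ padicValNat r k := (padicValNat_dvd_iff_le hk.ne').1 (h5.trans (Nat.gcd_dvd_left _ _))
          omega
        obtain ⟨t', rfl⟩ := hrt
        exact ⟨t', by rw [ht, show G * (r * t') = r * (G * t') by ring, Nat.mul_div_cancel_left _ hr.pos]⟩
      obtain ⟨b, hb⟩ := exists_root hq hr1 hc0 (orderOf_dvd_iff_pow_eq_one.1 (h1.trans h2))
      exact hc b hb
    · intro h
      refine ⟨z, hzpow, orderOf_dvd_iff_pow_eq_one.1 (hzo ▸ ?_)⟩
      exact (pow_dvd_pow r h).trans pow_padicValNat_dvd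
  by_cases hr2 : r = 2
  · subst hr2
    have heven : Even (2 * k) := ⟨k, two_mul k⟩
    have hodd : q % 2 = 1 := by omega
    by_cases h4 : q % 4 = 1
    · have hneg : IsSquare (-1 : F) := FiniteField.isSquare_neg_one_iff.2 (by rw [hq]; omega)
      obtain ⟨i, hi⟩ := hneg
      have hflip : ∀ c : F, (∀ b, b ^ 2 ≠ c) → ∀ b, b ^ 2 ≠ -c := fun c hc b hb => by
        have hi0 : i ≠ 0 := fun h => by simp [h] at hi
        exact hc (b * i) (by rw [mul_pow, pow_two i, ← hi, hb]; ring)
      refine Iff.trans ⟨?_, ?_⟩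
        (show a ≤ padicValNat 2 k ↔ _ from ⟨fun h h' => by omega, fun h => by_contra fun h' => h ⟨by omega, fun _ _ => h4⟩⟩)
      · rintro ⟨-, c, hc, hck⟩
        refine key.1 ⟨-c, hflip c hc, ?_⟩
        simpa [pow_succ] using hck
      · intro h
        obtain ⟨c, hc, hck⟩ := key.2 h
        exact ⟨dvd_mul_right 2 k, -c, hflip c hc, by simpa [pow_succ] using hck⟩
    · refine ⟨fun _ h => h4 (h.2 rfl heven), fun _ => ⟨dvd_mul_right 2 k, -1, fun b hb => ?_, by simp [pow_succ]⟩⟩
      exact absurd (FiniteField.isSquare_neg_one_iff.1 ⟨b, by rw [← hb, pow_two]⟩) (by rw [hq]; omega)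
  · have hr1' : ((-1 : F) ^ (r + 1)) = 1 := by
      obtain ⟨t, ht⟩ := hr.odd_of_ne_two hr2
      rw [ht, show 2 * t + 1 + 1 = 2 * (t + 1) by ring, pow_mul, neg_one_sq, one_pow]
    simp only [hr1', one_mul, key]
    exact ⟨fun ⟨_, h⟩ h' => by omega, fun h => ⟨dvd_mul_right r k, by_contra fun h' => h ⟨by omega, fun h2 => absurd h2 hr2⟩⟩⟩

omit [FiniteDimensional F V] in
/-- An element of order dividing `r` with fixed space of dimension `f`. -/
theorem exists_elem_fixed {p : ℕ} [Fact p.Prime] [CharP F p] (hq : Fintype.card F = q) (r : ℕ) [Fact r.Prime] (hrp : r ≠ p)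
    (hr1 : ¬ r ∣ q - 1) (n f : ℕ) (hf : f ≤ n) (hd : orderOf (q : ZMod r) ∣ n - f) :
    ∃ x : Matrix.SpecialLinearGroup (Fin n) F, (x : Matrix (Fin n) (Fin n) F) ^ r = 1 ∧
      finrank F (LinearMap.ker (Matrix.toLinAlgEquiv' (x : Matrix (Fin n) (Fin n) F) - 1)) = f := by
  classical
  obtain ⟨j, rfl⟩ : ∃ j, n = j + f := ⟨n - f, by omega⟩
  rw [Nat.add_sub_cancel] at hd
  obtain ⟨A, hA, hAfix, -⟩ := exists_fpf (p := p) hq r hrp j hd
  set B : Matrix (Fin (j + f)) (Fin (j + f)) F :=
    (Matrix.fromBlocks (A : Matrix (Fin j) (Fin j) F) 0 0 (1 : Matrix (Fin f) (Fin f) F)).submatrix finSumFinEquiv.symm finSumFinEquiv.symm with hB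
  have hAr : (A : Matrix (Fin j) (Fin j) F) ^ r = 1 := by rw [← Units.val_pow_eq_pow_val, hA]; rfl
  have hBr : B ^ r = 1 := by
    have hp : ∀ s : ℕ, B ^ s = (Matrix.fromBlocks ((A : Matrix (Fin j) (Fin j) F) ^ s) 0 0 (1 : Matrix (Fin f) (Fin f) F)).submatrix finSumFinEquiv.symm finSumFinEquiv.symm := fun s => by
      induction s with
      | zero => simp [Matrix.fromBlocks_one, Matrix.submatrix_one_equiv]
      | succ s ih => rw [pow_succ, ih, hB, Matrix.submatrix_mul_equiv, Matrix.fromBlocks_multiply]; simp [pow_succ]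
    rw [hp, hAr, Matrix.fromBlocks_one, Matrix.submatrix_one_equiv]
  have hdet : B.det = 1 := by
    have h1 : B.det ^ r = 1 := by rw [← Matrix.det_pow, hBr, Matrix.det_one]
    have hne : B.det ≠ 0 := fun h => by rw [h, zero_pow (Fact.out : r.Prime).ne_zero] at h1; exact zero_ne_one h1
    have h2 : B.det ^ (q - 1) = 1 := hq ▸ FiniteField.pow_card_sub_one_eq_one _ hne
    exact orderOf_eq_one_iff.1 (Nat.eq_one_of_dvd_coprimes ((Fact.out : r.Prime).coprime_iff_not_dvd.2 hr1)
      (orderOf_dvd_of_pow_eq_one h1) (orderOf_dvd_of_pow_eq_one h2))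
  refine ⟨⟨B, hdet⟩, hBr, ?_⟩
  let ι : (Fin f → F) →ₗ[F] (Fin (j + f) → F) := LinearMap.pi fun i => Sum.elim (fun _ => 0) LinearMap.proj (finSumFinEquiv.symm i)
  have hι : ∀ w i, ι w i = Sum.elim (fun _ => (0 : F)) w (finSumFinEquiv.symm i) := fun w i => by
    simp only [ι, LinearMap.pi_apply]
    rcases finSumFinEquiv.symm i with t | t <;> simp
  have hker : LinearMap.ker (Matrix.toLinAlgEquiv' B - 1) = LinearMap.range ι := by
    ext v
    have hv : B.mulVec v = (Matrix.fromBlocks (A : Matrix (Fin j) (Fin j) F) 0 0 (1 : Matrix (Fin f) (Fin f) F)).mulVec (v ∘ finSumFinEquiv) ∘ finSumFinEquiv.symm :=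
      Matrix.submatrix_mulVec_equiv _ _ _ finSumFinEquiv.symm
    simp only [LinearMap.mem_ker, LinearMap.sub_apply, Module.End.one_apply, sub_eq_zero, Matrix.toLinAlgEquiv'_apply, LinearMap.mem_range]
    constructor
    · intro h
      rw [hv, Matrix.fromBlocks_mulVec] at h
      have ha : (v ∘ finSumFinEquiv) ∘ Sum.inl = 0 := hAfix _ (by
        funext i
        simpa using congrFun h (finSumFinEquiv (Sum.inl i)))
      refine ⟨(v ∘ finSumFinEquiv) ∘ Sum.inr, funext fun i => ?_⟩
      obtain ⟨t, rfl⟩ := finSumFinEquiv.surjective i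
      rw [hι, Equiv.symm_apply_apply]
      rcases t with t | t
      · exact (congrFun ha t).symm
      · rfl
    · rintro ⟨w, rfl⟩
      rw [hv, Matrix.fromBlocks_mulVec]
      funext i
      obtain ⟨t, rfl⟩ := finSumFinEquiv.surjective i
      have e0 : ((ι w) ∘ finSumFinEquiv) ∘ Sum.inl = (0 : Fin j → F) := funext fun t => by simp [hι, Function.comp_apply]
      rw [Function.comp_apply, Equiv.symm_apply_apply, e0, hι, Equiv.symm_apply_apply]
      rcases t with t | t <;> simp [hι]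
  show finrank F (LinearMap.ker (Matrix.toLinAlgEquiv' B - 1)) = f
  rw [hker, LinearMap.finrank_range_of_inj, finrank_fin_fun]
  intro a b h
  funext t
  have := congrFun h (finSumFinEquiv (Sum.inr t))
  simpa [hι] using this

end Cfsg.Lib.Derange
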