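import Mathlib
import Cfsg.Agent.Lib.Derange.Nonpower

/-!
Elements of prime order of `SL_n(q)` and invariant subspaces of prescribed dimensions.
-/

set_option autoImplicit false

namespace Cfsg.Lib.Derange

open Module

variable {F : Type*} [Field F] [Fintype F] {p : ℕ} [Fact p.Prime] [CharP F p] {q : ℕ} (hq : Fintype.card F = q)
variable (r : ℕ) [Fact r.Prime] (hrp : r ≠ p) {n : ℕ}

include hq hrp

lemma cast_ne_zero : (q : ZMod r) ≠ 0 := by
  rw [Ne, ZMod.natCast_eq_zero_iff]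
  intro h
  obtain ⟨k, hpk, hk⟩ := FiniteField.card F p
  rw [← hq, hk] at h
  exact hrp ((Nat.prime_dvd_prime_iff_eq Fact.out hpk).1 ((Fact.out : r.Prime).dvd_of_dvd_pow h))

omit hq in
lemma cast_ne_zero' : (r : F) ≠ 0 := by
  rw [Ne, CharP.cast_eq_zero_iff F p]
  exact fun h => hrp ((Nat.prime_dvd_prime_iff_eq (Fact.out : p.Prime) Fact.out).1 h).symm

omit hrp [CharP F p] in
lemma dvd_sub_one_iff : r ∣ q - 1 ↔ orderOf (q : ZMod r) = 1 := by
  rw [orderOf_eq_one_iff, ← ZMod.natCast_eq_zero_iff, Nat.cast_sub (hq ▸ Fintype.card_pos), Nat.cast_one, sub_eq_zero]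

/-- Order one: subspaces of all dimensions. -/
lemma pair_of_power (he : orderOf (q : ZMod r) = 1) (T : (Fin n → F) →ₗ[F] (Fin n → F)) {b : F} (hb0 : b ≠ 0)
    (hT : T ^ r = b ^ r • 1) (m M : ℕ) (hmM : m ≤ M) (hM : M ≤ n) :
    ∃ A B : Submodule F (Fin n → F), A ≤ B ∧ finrank F A = m ∧ finrank F B = M ∧ A.map T ≤ A ∧ B.map T ≤ B := by
  have hT' : (b⁻¹ • T) ^ r = 1 := by rw [smul_pow, hT, smul_smul, ← mul_pow, inv_mul_cancel₀ hb0, one_pow, one_smul]
  set K := LinearMap.ker (b⁻¹ • T - 1)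
  set f := finrank F K
  obtain ⟨A, B, hAB, hA, hB, hAd, hBd⟩ := exists_pair hq r (cast_ne_zero hq r hrp) (cast_ne_zero' r hrp) (b⁻¹ • T) hT'
    (m - min m f) (min m f) (M - min M f) (min M f) (by omega) (by omega) (min_le_right _ _)
    (by
      rw [he, mul_one, finrank_fin_fun]
      show M - min M f ≤ n - f
      omega)
  rw [he, mul_one] at hAd hBd
  rw [Submodule.map_smul _ _ _ (inv_ne_zero hb0)] at hA hB
  exact ⟨A, B, hAB, by omega, by omega, hA, hB⟩

/-- Order at least two. -/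
lemma pair_of_order (he : 2 ≤ orderOf (q : ZMod r)) (x : Matrix.SpecialLinearGroup (Fin n) F) {c : F}
    (hx : (x : Matrix (Fin n) (Fin n) F) ^ r = c • 1) (hns : ∀ z : F, (x : Matrix (Fin n) (Fin n) F) ≠ z • 1) :
    ∃ (T : (Fin n → F) →ₗ[F] (Fin n → F)) (b : F), b ≠ 0 ∧ Matrix.toLin' (x : Matrix (Fin n) (Fin n) F) = b • T ∧ T ^ r = 1 ∧
      1 ≤ finrank F (Fin n → F) - finrank F (LinearMap.ker (T - 1)) ∧
      ∃ a, 1 ≤ a ∧ n - finrank F (LinearMap.ker (T - 1)) = orderOf (q : ZMod r) * a := by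
  classical
  have hr : r.Prime := Fact.out
  have hn0 : 0 < n := by
    rcases Nat.eq_zero_or_pos n with h | h
    · subst h; exact absurd (Subsingleton.elim _ _) (hns 0)
    · exact h
  haveI : Nonempty (Fin n) := ⟨⟨0, hn0⟩⟩
  have hc0 : c ≠ 0 := fun h => by
    have := congrArg Matrix.det hx
    rw [Matrix.det_pow, x.2, one_pow, h, zero_smul, Matrix.det_zero] at this
    exact one_ne_zero this
  have hcop : Nat.Coprime r (q - 1) := hr.coprime_iff_not_dvd.2 fun h => by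
    rw [dvd_sub_one_iff hq r] at h; omega
  obtain ⟨b, hb⟩ : ∃ b : F, b ^ r = c := by
    obtain ⟨u, hu⟩ := (powCoprime (G := Fˣ) (n := r) (by
      rw [Nat.card_units, Nat.card_eq_fintype_card, hq]; exact hcop.symm)).surjective (Units.mk0 c hc0)
    exact ⟨u, by simpa using congrArg Units.val hu⟩
  have hb0 : b ≠ 0 := fun h => hc0 (by rw [← hb, h, zero_pow hr.ne_zero])
  refine ⟨b⁻¹ • Matrix.toLinAlgEquiv' (x : Matrix (Fin n) (Fin n) F), b, hb0, ?_, ?_, ?_⟩
  · rw [smul_smul, mul_inv_cancel₀ hb0, one_smul]; rfl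
  · rw [smul_pow, ← map_pow, hx, map_smul, map_one, smul_smul, ← hb, ← mul_pow, inv_mul_cancel₀ hb0, one_pow, one_smul]
  set T := b⁻¹ • Matrix.toLinAlgEquiv' (x : Matrix (Fin n) (Fin n) F)
  have hT : T ^ r = 1 := by
    rw [smul_pow, ← map_pow, hx, map_smul, map_one, smul_smul, ← hb, ← mul_pow, inv_mul_cancel₀ hb0, one_pow, one_smul]
  obtain ⟨a, ha⟩ := orderOf_dvd_codim hq r (cast_ne_zero hq r hrp) T hT
  rw [finrank_fin_fun] at ha ⊢
  have hlt : finrank F (LinearMap.ker (T - 1)) < n := by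
    by_contra hge
    have htop : LinearMap.ker (T - 1) = ⊤ := Submodule.eq_top_of_finrank_eq (le_antisymm (Submodule.finrank_le _) (by rw [finrank_fin_fun]; omega))
    refine hns b (Matrix.toLinAlgEquiv'.injective ?_)
    have h1 : T = 1 := sub_eq_zero.1 (LinearMap.ker_eq_top.1 htop)
    rw [map_smul, map_one, ← h1, smul_smul, mul_inv_cancel₀ hb0, one_smul]
  refine ⟨by omega, a, Nat.one_le_iff_ne_zero.2 fun h => ?_, ha⟩
  rw [h, mul_zero] at ha
  omega

/-- The elementary derangement: fixed space of dimension `n % e`. -/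
lemma exists_small_fixed (he : 2 ≤ orderOf (q : ZMod r)) (hlt : n % orderOf (q : ZMod r) < n) :
    ∃ x : Matrix.SpecialLinearGroup (Fin n) F, (x : Matrix (Fin n) (Fin n) F) ^ r = (1 : F) • 1 ∧
      (∀ z : F, (x : Matrix (Fin n) (Fin n) F) ≠ z • 1) ∧
      ∀ W : Submodule F (Fin n → F), W.map (Matrix.toLin' (x : Matrix (Fin n) (Fin n) F)) ≤ W →
        finrank F W % orderOf (q : ZMod r) ≤ n % orderOf (q : ZMod r) ∧
        finrank F (W ⊓ LinearMap.ker (Matrix.toLinAlgEquiv' (x : Matrix (Fin n) (Fin n) F) - 1) : Submodule F (Fin n → F)) = finrank F W % orderOf (q : ZMod r) := by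
  classical
  have hr1 : ¬ r ∣ q - 1 := fun h => by rw [dvd_sub_one_iff hq r] at h; omega
  set e := orderOf (q : ZMod r)
  obtain ⟨x, hxr, hxf⟩ := exists_elem_fixed (p := p) hq r hrp hr1 n (n % e) (Nat.mod_le _ _) (Nat.dvd_sub_mod n)
  refine ⟨x, by rw [one_smul]; exact hxr, fun z hz => ?_, fun W hW => ?_⟩
  · rcases Nat.eq_zero_or_pos n with h | h
    · omega
    have hz1 : z = 1 := by
      have h1 : z ^ r = 1 := by
        have h2 := congrFun (congrFun hxr ⟨0, h⟩) ⟨0, h⟩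
        rw [hz, smul_pow, one_pow] at h2
        simpa using h2
      have hne : z ≠ 0 := fun h0 => by rw [h0, zero_pow (Fact.out : r.Prime).ne_zero] at h1; exact zero_ne_one h1
      exact orderOf_eq_one_iff.1 (Nat.eq_one_of_dvd_coprimes ((Fact.out : r.Prime).coprime_iff_not_dvd.2 hr1)
        (orderOf_dvd_of_pow_eq_one h1) (orderOf_dvd_of_pow_eq_one (hq ▸ FiniteField.pow_card_sub_one_eq_one _ hne)))
    rw [hz, hz1, one_smul, map_one, sub_self, LinearMap.ker_zero, finrank_top, finrank_fin_fun] at hxf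
    omega
  · have hT : Matrix.toLinAlgEquiv' (x : Matrix (Fin n) (Fin n) F) ^ r = 1 := by rw [← map_pow, hxr, map_one]
    obtain ⟨k, hk⟩ := exists_dim hq r (cast_ne_zero hq r hrp) _ hT W hW
    have hle : finrank F (W ⊓ LinearMap.ker (Matrix.toLinAlgEquiv' (x : Matrix (Fin n) (Fin n) F) - 1) : Submodule F (Fin n → F)) ≤ n % e :=
      hxf ▸ Submodule.finrank_mono inf_le_right
    have hlte : n % e < e := Nat.mod_lt _ (by omega)
    rw [hk, Nat.add_mul_mod_self_left, Nat.mod_eq_of_lt (by omega)]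
    exact ⟨hle, rfl⟩

omit hrp [CharP F p] in
/-- Nonpower case: invariant subspaces exist exactly in multiples of `r`. -/
lemma pair_of_nonpower (T : (Fin n → F) →ₗ[F] (Fin n → F)) {c : F} (hc : ∀ b, b ^ r ≠ c) (hT : T ^ r = c • 1)
    (m M : ℕ) (hmM : m ≤ M) (hM : M ≤ n) (hrm : r ∣ m) (hrM : r ∣ M) :
    ∃ A B : Submodule F (Fin n → F), A ≤ B ∧ finrank F A = m ∧ finrank F B = M ∧ A.map T ≤ A ∧ B.map T ≤ B := by
  classical
  have hr : r.Prime := Fact.out
  have hann : Polynomial.aeval T [Polynomial.X ^ r - Polynomial.C c].prod = 0 := by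
    simp [hT, Algebra.algebraMap_eq_smul_one]
  have hgs : ∀ g ∈ [Polynomial.X ^ r - Polynomial.C c], g.Monic ∧ g.natDegree ≤ r := by
    intro g hg
    rw [List.mem_singleton] at hg
    subst hg
    exact ⟨Polynomial.monic_X_pow_sub_C c hr.ne_zero, le_of_eq Polynomial.natDegree_X_pow_sub_C⟩
  have hdvd : ∀ W ≤ (⊤ : Submodule F (Fin n → F)), W.map T ≤ W → r ∣ finrank F W := fun W _ hW =>
    dvd_finrank_of_nonpower r hr hc T hT W hW
  obtain ⟨a, rfl⟩ := hrm
  obtain ⟨b, rfl⟩ := hrM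
  obtain ⟨A, -, -, hA, hAd⟩ := exists_extend T r _ hgs hann ⊤ (by simp) hdvd ⊥ bot_le (by simp) 0 (by simp) a (Nat.zero_le _)
    (by rw [finrank_top, finrank_fin_fun]; nlinarith)
  obtain ⟨B, hAB, -, hB, hBd⟩ := exists_extend T r _ hgs hann ⊤ (by simp) hdvd A le_top hA a hAd b
    (Nat.le_of_mul_le_mul_left hmM hr.pos) (by rw [finrank_top, finrank_fin_fun]; nlinarith)
  exact ⟨A, B, hAB, by rw [hAd, mul_comm], by rw [hBd, mul_comm], hA, hB⟩

/-- Order one: the element without invariant subspaces of dimension prime to `r`. -/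
lemma exists_nonpower_elem (he : orderOf (q : ZMod r) = 1) (hn : 0 < n)
    (hcond : ¬ (padicValNat r n ≤ padicValNat r (q - 1) ∧ (r = 2 → Even n → q % 4 = 1))) :
    ∃ (x : Matrix.SpecialLinearGroup (Fin n) F) (c : F), (x : Matrix (Fin n) (Fin n) F) ^ r = c • 1 ∧
      (∀ z : F, (x : Matrix (Fin n) (Fin n) F) ≠ z • 1) ∧
      ∀ W : Submodule F (Fin n → F), W.map (Matrix.toLin' (x : Matrix (Fin n) (Fin n) F)) ≤ W → r ∣ finrank F W := by
  classical
  have hr : r.Prime := Fact.out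
  obtain ⟨⟨k, rfl⟩, c, hc, hdet⟩ := (exists_nonpower_iff hq r n ((dvd_sub_one_iff hq r).2 he) hn).2 hcond
  obtain ⟨T, hT⟩ := exists_nonpower_map r k hr hc
  have hd : (LinearMap.toMatrix' T).det = 1 := by
    rw [LinearMap.det_toMatrix', det_of_nonpower r hr hc T hT, finrank_fin_fun]; exact hdet
  have hTx : Matrix.toLinAlgEquiv' (LinearMap.toMatrix' T) = T := Matrix.toLin'_toMatrix' T
  refine ⟨⟨LinearMap.toMatrix' T, hd⟩, c, ?_, fun z hz => ?_, fun W hW => ?_⟩
  · apply Matrix.toLinAlgEquiv'.injective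
    rw [map_pow, hTx, map_smul, map_one, hT]
  · have h1 : z ^ r • (1 : (Fin (r * k) → F) →ₗ[F] (Fin (r * k) → F)) = c • 1 := by
      have h0 := congrArg Matrix.toLinAlgEquiv' hz
      rw [hTx, map_smul, map_one] at h0
      rw [← hT, h0, smul_pow, one_pow]
    have h2 := congrFun (LinearMap.congr_fun h1 (fun _ => 1)) ⟨0, hn⟩
    exact hc z (by simpa using h2)
  · rw [Matrix.toLin'_toMatrix'] at hW
    exact dvd_finrank_of_nonpower r hr hc T hT W hW

/-- Order one: the criterion for the existence of pairs. -/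
lemma pair_order_one (he : orderOf (q : ZMod r) = 1) (x : Matrix.SpecialLinearGroup (Fin n) F) {c : F}
    (hn : 0 < n) (hx : (x : Matrix (Fin n) (Fin n) F) ^ r = c • 1) (m M : ℕ) (hmM : m ≤ M) (hM : M ≤ n)
    (hcond : (r ∣ m ∧ (r ∣ n → r ∣ M)) ∨ (padicValNat r n ≤ padicValNat r (q - 1) ∧ (r = 2 → Even n → q % 4 = 1))) :
    ∃ A B : Submodule F (Fin n → F), A ≤ B ∧ finrank F A = m ∧ finrank F B = M ∧
      A.map (Matrix.toLin' (x : Matrix (Fin n) (Fin n) F)) ≤ A ∧ B.map (Matrix.toLin' (x : Matrix (Fin n) (Fin n) F)) ≤ B := by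
  classical
  have hr : r.Prime := Fact.out
  set T := Matrix.toLinAlgEquiv' (x : Matrix (Fin n) (Fin n) F)
  have hT : T ^ r = c • 1 := by rw [← map_pow, hx, map_smul, map_one]
  by_cases hc : ∃ b, b ^ r = c
  · obtain ⟨b, rfl⟩ := hc
    haveI : Nonempty (Fin n) := ⟨⟨0, hn⟩⟩
    refine pair_of_power hq r hrp he T (fun h => ?_) hT m M hmM hM
    have := congrArg Matrix.det hx
    rw [Matrix.det_pow, x.2, one_pow, h, zero_pow hr.ne_zero, zero_smul, Matrix.det_zero] at this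
    exact one_ne_zero this
  · push Not at hc
    have hrn : r ∣ n := by
      have := dvd_finrank_of_nonpower r hr hc T hT ⊤ le_top
      rwa [finrank_top, finrank_fin_fun] at this
    rcases hcond with ⟨h1, h2⟩ | hcond
    · exact pair_of_nonpower hq r T hc hT m M hmM hM h1 (h2 hrn)
    · exfalso
      refine (exists_nonpower_iff hq r n ((dvd_sub_one_iff hq r).2 he) hn).1 ⟨hrn, c, hc, ?_⟩ hcond
      have h := det_of_nonpower r hr hc T hT
      rw [finrank_fin_fun] at h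
      rw [← h]
      show LinearMap.det (Matrix.toLin' (x : Matrix (Fin n) (Fin n) F)) = 1
      rw [LinearMap.det_toLin']; exact x.2

end Cfsg.Lib.Derange
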