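import Mathlib

/-!
Numbers of subspaces and of flags over a finite field.
-/

set_option autoImplicit false

namespace Cfsg.Lib.Derange

open Module

variable {F V : Type*} [Field F] [Fintype F] [AddCommGroup V] [Module F V]

/-- `∏_{i<k} (q^(i+1) - 1)`. -/
def qP (q k : ℕ) : ℕ := ∏ i ∈ Finset.range k, (q ^ (i + 1) - 1)

lemma qP_pos {q : ℕ} (hq : 1 < q) (k : ℕ) : 0 < qP q k :=
  Finset.prod_pos fun i _ => Nat.sub_pos_of_lt (Nat.one_lt_pow (by omega) hq)

lemma prod_sub_pow {q : ℕ} (n k : ℕ) (hk : k ≤ n) :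
    ∏ i : Fin k, (q ^ n - q ^ (i : ℕ)) = (∏ i ∈ Finset.range k, q ^ i) * ∏ i ∈ Finset.range k, (q ^ (n - i) - 1) := by
  rw [Fin.prod_univ_eq_prod_range (fun i => q ^ n - q ^ i) k, ← Finset.prod_mul_distrib]
  refine Finset.prod_congr rfl fun i hi => ?_
  rw [Finset.mem_range] at hi
  rw [Nat.mul_sub, mul_one, ← pow_add, show i + (n - i) = n by omega]

lemma qP_split {q : ℕ} (n k : ℕ) (hk : k ≤ n) :
    (∏ i ∈ Finset.range k, (q ^ (n - i) - 1)) * qP q (n - k) = qP q n := by
  obtain ⟨j, rfl⟩ : ∃ j, n = j + k := ⟨n - k, by omega⟩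
  rw [Nat.add_sub_cancel, qP, qP, Finset.prod_range_add, mul_comm, ← Finset.prod_range_reflect (fun i => q ^ (j + i + 1) - 1) k]
  congr 1
  refine Finset.prod_congr rfl fun i hi => ?_
  rw [Finset.mem_range] at hi
  congr 2
  omega

/-- The number of `m`-subspaces. -/
theorem card_subspaces_mul [FiniteDimensional F V] {q : ℕ} (hq : Fintype.card F = q) (n m : ℕ) (hn : finrank F V = n) (hm : m ≤ n) :
    Nat.card {W : Submodule F V // finrank F ↥W = m} * (qP q m * qP q (n - m)) = qP q n := by
  classical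
  haveI : Finite V := Module.finite_of_finite F
  set L := {W : Submodule F V // finrank F ↥W = m}
  haveI := Fintype.ofFinite V
  haveI := Fintype.ofFinite L
  let sp : {s : Fin m → V // LinearIndependent F s} → L := fun s =>
    ⟨Submodule.span F (Set.range s.1), by rw [finrank_span_eq_card s.2, Fintype.card_fin]⟩
  have hfib : ∀ W : L, Nat.card {s // sp s = W} = ∏ i : Fin m, (q ^ m - q ^ (i : ℕ)) := fun W => by
    have h := card_linearIndependent (K := F) (V := W.1) (k := m) (le_of_eq W.2.symm)
    rw [hq, W.2] at h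
    rw [← h]
    refine Nat.card_congr
      { toFun := fun s => ⟨fun i => ⟨s.1.1 i, congrArg Subtype.val s.2 ▸ Submodule.subset_span ⟨i, rfl⟩⟩,
          LinearIndependent.of_comp W.1.subtype s.1.2⟩
        invFun := fun t => ⟨⟨fun i => (t.1 i : V), t.2.map' _ W.1.ker_subtype⟩, Subtype.ext (by
          refine Submodule.eq_of_le_of_finrank_eq (Submodule.span_le.2 ?_) ?_
          · rintro _ ⟨i, rfl⟩; exact (t.1 i).2
          · show finrank F (Submodule.span F (Set.range fun i => (t.1 i : V))) = _
            rw [finrank_span_eq_card (show LinearIndependent F fun i => (t.1 i : V) from t.2.map' _ W.1.ker_subtype),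
              Fintype.card_fin, W.2])⟩
        left_inv := fun s => rfl
        right_inv := fun t => rfl }
  have h := card_linearIndependent (K := F) (V := V) (k := m) (hn ▸ hm)
  rw [hq, hn, ← Nat.card_congr (Equiv.sigmaFiberEquiv sp), Nat.card_sigma, Finset.sum_congr rfl fun W _ => hfib W,
    Finset.sum_const, Finset.card_univ, smul_eq_mul, ← Nat.card_eq_fintype_card, prod_sub_pow m m le_rfl,
    prod_sub_pow n m hm] at h
  have hqpos : 1 < q := hq ▸ Fintype.one_lt_card
  have e1 : ∏ i ∈ Finset.range m, (q ^ (m - i) - 1) = qP q m := by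
    have := qP_split (q := q) m m le_rfl
    simpa [qP] using this
  rw [e1] at h
  refine Nat.eq_of_mul_eq_mul_left (Finset.prod_pos fun i _ => pow_pos (by omega) i : 0 < ∏ i ∈ Finset.range m, q ^ i) ?_
  rw [← qP_split (q := q) n m hm]
  calc (∏ i ∈ Finset.range m, q ^ i) * (Nat.card L * (qP q m * qP q (n - m)))
      = Nat.card L * ((∏ i ∈ Finset.range m, q ^ i) * qP q m) * qP q (n - m) := by ring
    _ = _ := by rw [h]; ring

/-- The number of flags of type `(m, n - m)`. -/
theorem card_flags_mul [FiniteDimensional F V] {q : ℕ} (hq : Fintype.card F = q) (n m : ℕ) (hn : finrank F V = n) (hm : 2 * m ≤ n) :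
    Nat.card {P : Submodule F V × Submodule F V // P.1 ≤ P.2 ∧ finrank F ↥P.1 = m ∧ finrank F ↥P.2 = n - m} *
      (qP q m * qP q m * qP q (n - 2 * m)) = qP q n := by
  classical
  haveI : Finite V := Module.finite_of_finite F
  set L := {W : Submodule F V // finrank F ↥W = m}
  set S := {P : Submodule F V × Submodule F V // P.1 ≤ P.2 ∧ finrank F ↥P.1 = m ∧ finrank F ↥P.2 = n - m}
  haveI := Fintype.ofFinite L
  let π : S → L := fun P => ⟨P.1.1, P.2.2.1⟩
  have hfib : ∀ U : L, Nat.card {P // π P = U} * (qP q (n - 2 * m) * qP q m) = qP q (n - m) := fun U => by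
    have hquot : finrank F (V ⧸ U.1) = n - m := by
      have := Submodule.finrank_quotient_add_finrank U.1
      have := U.2
      omega
    have h := card_subspaces_mul (V := V ⧸ U.1) hq (n - m) (n - 2 * m) hquot (by omega)
    rw [show n - m - (n - 2 * m) = m by omega] at h
    rw [← h]
    congr 1
    have hd : ∀ W : Submodule F V, U.1 ≤ W → finrank F (W.map U.1.mkQ) + m = finrank F W := fun W hW => by
      have h := LinearMap.finrank_range_add_finrank_ker (U.1.mkQ.comp W.subtype)
      rw [LinearMap.range_comp, Submodule.range_subtype, LinearMap.ker_comp, Submodule.ker_mkQ,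
        (Submodule.equivMapOfInjective _ W.injective_subtype _).finrank_eq] at h
      rw [Submodule.map_comap_subtype, inf_eq_right.2 hW, U.2] at h
      omega
    refine Nat.card_congr
      { toFun := fun P => ⟨P.1.1.2.map U.1.mkQ, by
          have e : P.1.1.1 = U.1 := congrArg Subtype.val P.2
          have := hd P.1.1.2 (e ▸ P.1.2.1)
          rw [P.1.2.2.2] at this
          omega⟩
        invFun := fun W => ⟨⟨(U.1, W.1.comap U.1.mkQ), ⟨Submodule.le_comap_mkQ _ _, U.2, by
          have := hd (W.1.comap U.1.mkQ) (Submodule.le_comap_mkQ _ _)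
          rw [Submodule.map_comap_eq, Submodule.range_mkQ, top_inf_eq, W.2] at this
          show finrank F (W.1.comap U.1.mkQ) = n - m
          omega⟩⟩, rfl⟩
        left_inv := fun P => by
          obtain ⟨⟨⟨A, B⟩, hAB, h1, h2⟩, hP⟩ := P
          have e : A = U.1 := congrArg Subtype.val hP
          subst e
          refine Subtype.ext (Subtype.ext (Prod.ext rfl ?_))
          show (B.map U.1.mkQ).comap U.1.mkQ = B
          rw [Submodule.comap_map_mkQ]
          exact sup_eq_right.2 hAB
        right_inv := fun W => Subtype.ext (Submodule.map_comap_eq_of_surjective U.1.mkQ_surjective _) }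
  haveI := Fintype.ofFinite S
  have hsum : Nat.card S * (qP q (n - 2 * m) * qP q m) = Nat.card L * qP q (n - m) := by
    rw [← Nat.card_congr (Equiv.sigmaFiberEquiv π), Nat.card_sigma, Finset.sum_mul, Finset.sum_congr rfl fun U _ => hfib U,
      Finset.sum_const, Finset.card_univ, smul_eq_mul, Nat.card_eq_fintype_card]
  rw [← card_subspaces_mul hq n m hn (by omega)]
  calc Nat.card S * (qP q m * qP q m * qP q (n - 2 * m)) = Nat.card S * (qP q (n - 2 * m) * qP q m) * qP q m := by ring
    _ = _ := by rw [hsum]; ring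

/-- `qP` is prime to the characteristic. -/
lemma not_dvd_qP {q r : ℕ} (hr : r.Prime) (hrq : r ∣ q) (hq : 1 < q) (k : ℕ) : ¬ r ∣ qP q k := fun h => by
  obtain ⟨i, -, hi⟩ := (Prime.dvd_finsetProd_iff hr.prime _).1 h
  have h1 : r ∣ q ^ (i + 1) := dvd_pow hrq (by omega)
  have h2 := Nat.dvd_sub h1 hi
  rw [Nat.sub_sub_self (Nat.one_le_pow _ _ (by omega))] at h2
  exact hr.one_lt.ne' (Nat.dvd_one.1 h2)

/-- If `r` divides `qP q n / qP q (n - k)` then `n % e < k`. -/
lemma mod_lt_of_dvd {q r : ℕ} (hr : r.Prime) (hq : 1 < q) (n k : ℕ) (hk : k ≤ n) (N : ℕ)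
    (hN : N ∣ ∏ i ∈ Finset.range k, (q ^ (n - i) - 1)) (h : r ∣ N) :
    n % orderOf (q : ZMod r) < k := by
  obtain ⟨i, hi, hi'⟩ := (Prime.dvd_finsetProd_iff hr.prime _).1 (h.trans hN)
  rw [Finset.mem_range] at hi
  haveI := Fact.mk hr
  have hd : orderOf (q : ZMod r) ∣ n - i := orderOf_dvd_of_pow_eq_one (by
    have h := (ZMod.natCast_eq_zero_iff _ r).2 hi'
    rwa [Nat.cast_sub (Nat.one_le_pow _ _ (by omega)), Nat.cast_pow, Nat.cast_one, sub_eq_zero] at h)
  obtain ⟨c, hc⟩ := hd
  rw [show n = orderOf (q : ZMod r) * c + i by omega, Nat.mul_add_mod]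
  exact lt_of_le_of_lt (Nat.mod_le _ _) hi

end Cfsg.Lib.Derange
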