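import Mathlib
import Cfsg.Agent.Lib.Classical.InvolBlocks
import Cfsg.Agent.Lib.Classical.PSpAut.Basis

/-!
Normal forms of linear maps squaring to a scalar, and conjugation inside `SL`.
-/

set_option autoImplicit false

namespace Cfsg.Lib.Derange

open Module Matrix

variable {F : Type*} [Field F]

section forms

variable {V : Type*} [AddCommGroup V] [Module F V] [FiniteDimensional F V]

/-- Pairs exchanged up to the scalar, and eigenvectors. -/
theorem exists_pair_form (T : V →ₗ[F] V) {z : F} (hz : z ≠ 0) (hT : ∀ v, T (T v) = z • v) :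
    ∃ (k r : ℕ) (b : Basis ((Bool × Fin k) ⊕ Fin r) F V) (ε : Fin r → F),
      (∀ i, T (b (Sum.inl (false, i))) = b (Sum.inl (true, i))) ∧
      (∀ i, T (b (Sum.inl (true, i))) = z • b (Sum.inl (false, i))) ∧
      (∀ j, T (b (Sum.inr j)) = ε j • b (Sum.inr j)) ∧ ∀ j, ε j * ε j = z := by
  classical
  obtain ⟨k, r, b, hb⟩ := Cfsg.Lib.InvolBlocks.exists_monomial T hz hT
  choose μ hμ using fun i => Submodule.mem_span_singleton.1 (hb i)
  have hμ0 : ∀ i, μ i ≠ 0 := fun i h => by
    have h1 := hμ i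
    rw [h, zero_smul] at h1
    have h2 := hT (b i)
    rw [← h1, map_zero] at h2
    exact b.ne_zero i ((smul_eq_zero.1 h2.symm).resolve_left hz)
  let w : (Fin k × Bool) ⊕ Fin r → Fˣ := Sum.elim (fun p => if p.2 then Units.mk0 _ (hμ0 (Sum.inl (p.1, false))) else 1) (fun _ => 1)
  let b' := (b.unitsSMul w).reindex ((Equiv.prodComm _ _).sumCongr (Equiv.refl _))
  have hb' : ∀ (s : Bool) (i : Fin k), b' (Sum.inl (s, i)) = (w (Sum.inl (i, s)) : F) • b (Sum.inl (i, s)) := fun s i => by
    simp [b', Basis.unitsSMul_apply, Units.smul_def]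
  have hbr : ∀ j, b' (Sum.inr j) = b (Sum.inr j) := fun j => by simp [b', w, Basis.unitsSMul_apply, Units.smul_def]
  have h0 : ∀ i, T (b' (Sum.inl (false, i))) = b' (Sum.inl (true, i)) := fun i => by
    rw [hb', hb', map_smul, ← hμ (Sum.inl (i, false))]
    simp [w]
  refine ⟨k, r, b', fun j => μ (Sum.inr j), h0, fun i => by rw [← h0, hT], fun j => ?_, fun j => ?_⟩
  · rw [hbr, ← hμ (Sum.inr j)]; rfl
  · have h1 : T (b (Sum.inr j)) = μ (Sum.inr j) • b (Sum.inr j) := (hμ (Sum.inr j)).symm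
    have h2 := hT (b (Sum.inr j))
    rw [h1, map_smul, h1, smul_smul] at h2
    exact smul_left_injective F (b.ne_zero _) h2

/-- Diagonal form in odd characteristic. -/
theorem exists_diag_form (h2 : (2 : F) ≠ 0) (T : V →ₗ[F] V) {s : F} (hs : s ≠ 0) (hT : ∀ v, T (T v) = (s * s) • v) :
    ∃ (i j : ℕ) (b : Basis (Fin i ⊕ Fin j) F V),
      (∀ x, T (b (Sum.inl x)) = s • b (Sum.inl x)) ∧ ∀ x, T (b (Sum.inr x)) = (-s) • b (Sum.inr x) := by
  classical
  let N : V →ₗ[F] V := T - s • LinearMap.id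
  let M : V →ₗ[F] V := T + s • LinearMap.id
  have hcpl : IsCompl (LinearMap.ker N) (LinearMap.ker M) := by
    refine ⟨Submodule.disjoint_def.2 fun v h1 h2' => ?_, Submodule.codisjoint_iff_exists_add_eq.2 fun v => ?_⟩
    · have a1 : T v - s • v = 0 := h1
      have a2 : T v + s • v = 0 := h2'
      have : (2 * s) • v = 0 := by
        rw [two_mul, add_smul]; linear_combination (norm := module) a2 - a1
      exact (smul_eq_zero.1 this).resolve_left (mul_ne_zero h2 hs)
    · refine ⟨(2 * s)⁻¹ • (T v + s • v), -(2 * s)⁻¹ • (T v - s • v), ?_, ?_, ?_⟩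
      · show T _ - s • _ = 0
        rw [map_smul, map_add, map_smul, hT, LinearMap.id_apply]; module
      · show T _ + s • _ = 0
        rw [map_smul, map_sub, map_smul, hT, LinearMap.id_apply]; module
      · rw [neg_smul, ← sub_eq_add_neg, ← smul_sub, show T v + s • v - (T v - s • v) = (2 * s) • v by module, smul_smul,
          inv_mul_cancel₀ (mul_ne_zero h2 hs), one_smul]
  refine ⟨_, _, ((finBasis F (LinearMap.ker N)).prod (finBasis F (LinearMap.ker M))).map (Submodule.prodEquivOfIsCompl _ _ hcpl),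
    fun x => ?_, fun x => ?_⟩
  · have h : ∀ v : LinearMap.ker N, T (v : V) = s • (v : V) := fun v => sub_eq_zero.1 v.2
    simpa using h _
  · have h : ∀ v : LinearMap.ker M, T (v : V) = (-s) • (v : V) := fun v => by
      rw [neg_smul]; exact eq_neg_of_add_eq_zero_left v.2
    simpa using h _

end forms

variable {n : ℕ}

/-- The matrix of basis vectors. -/
theorem exists_change (x : Matrix (Fin n) (Fin n) F) (b : Basis (Fin n) F (Fin n → F)) :
    ∃ Φ : GL (Fin n) F, x * (Φ : Matrix (Fin n) (Fin n) F) = (Φ : Matrix (Fin n) (Fin n) F) * LinearMap.toMatrix b b (Matrix.toLin' x) := by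
  let e : (Fin n → F) ≃ₗ[F] (Fin n → F) := b.equivFun.symm
  let Φ : GL (Fin n) F := ⟨LinearMap.toMatrix' e.toLinearMap, LinearMap.toMatrix' e.symm.toLinearMap,
    by rw [← LinearMap.toMatrix'_comp]; simp, by rw [← LinearMap.toMatrix'_comp]; simp⟩
  refine ⟨Φ, Matrix.ext_iff_mulVec.2 fun v => ?_⟩
  rw [← Matrix.mulVec_mulVec, ← Matrix.mulVec_mulVec]
  show x *ᵥ (LinearMap.toMatrix' e.toLinearMap *ᵥ v) = LinearMap.toMatrix' e.toLinearMap *ᵥ (LinearMap.toMatrix b b (Matrix.toLin' x) *ᵥ v)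
  rw [LinearMap.toMatrix'_mulVec, LinearMap.toMatrix'_mulVec]
  refine e.symm.injective ?_
  show b.equivFun (x *ᵥ e v) = b.equivFun (b.equivFun.symm _)
  rw [LinearEquiv.apply_symm_apply]
  have h := LinearMap.toMatrix_mulVec_repr b b (Matrix.toLin' x) (e v)
  rw [show ⇑(b.repr (e v)) = v from b.equivFun.apply_symm_apply v] at h
  rw [h]
  rfl

/-- Conjugation inside `SL` once the centralizer has all determinants. -/
theorem exists_sl (x : Matrix.SpecialLinearGroup (Fin n) F) (Φ : GL (Fin n) F) (D : Matrix (Fin n) (Fin n) F)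
    (hD : (x : Matrix (Fin n) (Fin n) F) * (Φ : Matrix (Fin n) (Fin n) F) = (Φ : Matrix (Fin n) (Fin n) F) * D)
    (hC : ∀ δ : F, δ ≠ 0 → ∃ C : Matrix (Fin n) (Fin n) F, C.det = δ ∧ C * D = D * C) :
    ∃ P : Matrix.SpecialLinearGroup (Fin n) F, ((P⁻¹ * x * P : Matrix.SpecialLinearGroup (Fin n) F) : Matrix (Fin n) (Fin n) F) = D := by
  have hd : (Φ : Matrix (Fin n) (Fin n) F).det ≠ 0 := Matrix.GeneralLinearGroup.det_ne_zero Φ
  obtain ⟨C, hC, hCD⟩ := hC _ (inv_ne_zero hd)
  let P : Matrix.SpecialLinearGroup (Fin n) F := ⟨(Φ : Matrix (Fin n) (Fin n) F) * C, by rw [Matrix.det_mul, hC, mul_inv_cancel₀ hd]⟩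
  refine ⟨P, ?_⟩
  have h : (x : Matrix (Fin n) (Fin n) F) * (P : Matrix (Fin n) (Fin n) F) = (P : Matrix (Fin n) (Fin n) F) * D := by
    show (x : Matrix (Fin n) (Fin n) F) * (_ * C) = _ * C * D
    rw [← Matrix.mul_assoc, hD, Matrix.mul_assoc, ← hCD, Matrix.mul_assoc]
  rw [Matrix.SpecialLinearGroup.coe_mul, Matrix.SpecialLinearGroup.coe_mul, Matrix.mul_assoc, h, ← Matrix.mul_assoc,
    ← Matrix.SpecialLinearGroup.coe_mul, inv_mul_cancel, Matrix.SpecialLinearGroup.coe_one, Matrix.one_mul]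

/-- A diagonal matrix commutes with diagonal matrices of every determinant. -/
theorem diag_commutant (a : Fin n → F) (hn : 0 < n) (δ : F) :
    ∃ C : Matrix (Fin n) (Fin n) F, C.det = δ ∧ C * Matrix.diagonal a = Matrix.diagonal a * C := by
  classical
  refine ⟨Matrix.diagonal fun i => if i = ⟨0, hn⟩ then δ else 1, by simp [Finset.prod_ite_eq'], ?_⟩
  rw [Matrix.diagonal_mul_diagonal, Matrix.diagonal_mul_diagonal]
  congr 1
  funext i
  ring

/-- Two nondegenerate alternating forms of the same dimension are isometric. -/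
theorem exists_iso {V : Type*} [AddCommGroup V] [Module F V] [FiniteDimensional F V] (m : ℕ) (hV : finrank F V = 2 * m)
    (B B' : LinearMap.BilinForm F V) (hA : B.IsAlt) (hA' : B'.IsAlt) (hB : ∀ x, x ≠ 0 → ∃ y, B x y ≠ 0)
    (hB' : ∀ x, x ≠ 0 → ∃ y, B' x y ≠ 0) : ∃ g : V ≃ₗ[F] V, ∀ u v, B (g u) (g v) = B' u v := by
  classical
  have hfam : ∀ (B : LinearMap.BilinForm F V), B.IsAlt → (∀ x, x ≠ 0 → ∃ y, B x y ≠ 0) →
      ∃ b : Basis (Fin m ⊕ Fin m) F V, ∀ x y, B (b x) (b y) = -(Matrix.J (Fin m) F) x y := by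
    intro B hA hB
    obtain ⟨u, v, -, huv⟩ := Cfsg.Lib.Classical.PSpAut.exists_symp_family B hA m ⊤
      (fun w _ hw0 => by obtain ⟨y, hy⟩ := hB w hw0; exact ⟨y, trivial, hy⟩) (by rw [finrank_top, hV])
    have hvu : ∀ i j, B (u i) (v j) = -(if j = i then (1 : F) else 0) := fun i j => by
      rw [Cfsg.Lib.Classical.alt_swap hA (v j) (u i), (huv j i).2.2]
    let w : Fin m ⊕ Fin m → V := Sum.elim v u
    have hLI : LinearIndependent F w := by
      rw [Fintype.linearIndependent_iff]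
      intro c hc x
      have key : ∀ y : V, ∑ k, c k * B (w k) y = 0 := fun y => by
        have := congrArg (fun z => B z y) hc
        simpa [map_sum, LinearMap.sum_apply] using this
      rcases x with i | i
      · have := key (u i)
        simpa [w, Fintype.sum_sum_type, (huv _ i).1, (huv _ i).2.2] using this
      · have := key (v i)
        simpa [w, Fintype.sum_sum_type, hvu, (huv _ i).2.1] using this
    refine ⟨basisOfLinearIndependentOfCardEqFinrank' w hLI (by rw [hV, Fintype.card_sum, Fintype.card_fin, two_mul]), fun x y => ?_⟩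
    rw [coe_basisOfLinearIndependentOfCardEqFinrank']
    rcases x with i | i <;> rcases y with j | j <;>
      simp [w, Matrix.J, (huv i j).1, (huv i j).2.1, (huv i j).2.2, hvu, Matrix.one_apply, eq_comm]
  obtain ⟨b, hb⟩ := hfam B hA hB
  obtain ⟨b', hb'⟩ := hfam B' hA' hB'
  refine ⟨b'.equiv b (Equiv.refl _), fun u v => ?_⟩
  have h : B.compl₁₂ (b'.equiv b (Equiv.refl _)).toLinearMap (b'.equiv b (Equiv.refl _)).toLinearMap = B' := by
    refine LinearMap.ext_basis b' b' fun i j => ?_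
    simp [hb, hb']
  exact LinearMap.congr_fun (LinearMap.congr_fun h u) v

end Cfsg.Lib.Derange
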