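import Mathlib
import Cfsg.Agent.Lib.Classical.ClassicalOrders

/-!
The number of pairs of complementary totally isotropic subspaces of half dimension.
-/

set_option autoImplicit false

namespace Cfsg.Lib.Derange

open Module Cfsg.Lib.Classical

variable {F : Type*} [Field F] [Fintype F]

set_option maxHeartbeats 1000000 in
/-- Frames are a polar pair and a basis of its first member. -/
theorem card_polar_pairs_mul (d : ℕ) {q : ℕ} (hq : Fintype.card F = q) :
    Nat.card {P : Submodule F (Fin d ⊕ Fin d → F) × Submodule F (Fin d ⊕ Fin d → F) // IsCompl P.1 P.2 ∧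
        (∀ u ∈ P.1, ∀ v ∈ P.1, Cfsg.sympForm d F u v = 0) ∧ (∀ u ∈ P.2, ∀ v ∈ P.2, Cfsg.sympForm d F u v = 0)} *
      (∏ i : Fin d, (q ^ d - q ^ (i : ℕ))) = ∏ i ∈ Finset.range d, (q ^ (2 * (i + 1)) - 1) * q ^ (2 * i + 1) := by
  classical
  set β := sympBilin F d with hβ
  have hA := sympBilin_isAlt F d
  have hB := sympBilin_nondegenerate F d
  have hV : finrank F (Fin d ⊕ Fin d → F) = 2 * d := by simp [two_mul]
  rw [← FrameCount.card_frames_alt hq hA d ⊤ (FrameCount.ndOn_top hB) (by rw [finrank_top, hV])]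
  set Pr := {P : Submodule F (Fin d ⊕ Fin d → F) × Submodule F (Fin d ⊕ Fin d → F) // IsCompl P.1 P.2 ∧
        (∀ u ∈ P.1, ∀ v ∈ P.1, Cfsg.sympForm d F u v = 0) ∧ (∀ u ∈ P.2, ∀ v ∈ P.2, Cfsg.sympForm d F u v = 0)}
  have hti : ∀ W : Submodule F (Fin d ⊕ Fin d → F), (∀ u ∈ W, ∀ v ∈ W, Cfsg.sympForm d F u v = 0) → finrank F W ≤ d := by
    intro W hW
    have h1 : W ≤ LinearMap.BilinForm.orthogonal β W := fun u hu w hw => by
      show β w u = 0
      rw [hβ, sympBilin_apply]; exact hW w hw u hu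
    have h2 := Submodule.finrank_mono h1
    rw [LinearMap.BilinForm.finrank_orthogonal hB, hV] at h2
    omega
  have hdim : ∀ P : Pr, finrank F P.1.1 = d ∧ finrank F P.1.2 = d := fun P => by
    have h := Submodule.finrank_add_eq_of_isCompl P.2.1
    rw [hV] at h
    have := hti _ P.2.2.1
    have := hti _ P.2.2.2
    omega
  haveI := Fintype.ofFinite Pr
  let S : Pr → Type _ := fun P => {s : Fin d → P.1.1 // LinearIndependent F s}
  have hS : ∀ P : Pr, Nat.card (S P) = ∏ i : Fin d, (q ^ d - q ^ (i : ℕ)) := fun P => by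
    have h := card_linearIndependent (K := F) (V := P.1.1) (k := d) (le_of_eq (hdim P).1.symm)
    rw [hq, (hdim P).1] at h
    exact h
  have hcard : Nat.card (Σ P, S P) = Nat.card Pr * ∏ i : Fin d, (q ^ d - q ^ (i : ℕ)) := by
    rw [Nat.card_sigma, Finset.sum_congr rfl fun P _ => hS P, Finset.sum_const, Finset.card_univ,
      Nat.card_eq_fintype_card, smul_eq_mul]
  rw [← hcard]
  -- the pairing
  let Θ : (P : Pr) → (S P) → P.1.2 →ₗ[F] (Fin d → F) := fun P s => LinearMap.pi fun i => (β (s.1 i : Fin d ⊕ Fin d → F)).comp P.1.2.subtype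
  have hspan : ∀ (P : Pr) (s : S P), Submodule.span F (Set.range fun i => (s.1 i : Fin d ⊕ Fin d → F)) = P.1.1 := fun P s => by
    refine Submodule.eq_of_le_of_finrank_eq (Submodule.span_le.2 ?_) ?_
    · rintro _ ⟨i, rfl⟩; exact (s.1 i).2
    · rw [finrank_span_eq_card (show LinearIndependent F (fun i => (s.1 i : Fin d ⊕ Fin d → F)) from s.2.map' _ P.1.1.ker_subtype), Fintype.card_fin, (hdim P).1]
  have hΘi : ∀ P s, Function.Injective (Θ P s) := fun P s => by
    rw [injective_iff_map_eq_zero]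
    intro w hw
    refine Subtype.ext (hB.1 _ fun y => ?_)
    obtain ⟨a, ha, b, hb, rfl⟩ := Submodule.mem_sup.1 (P.2.1.sup_eq_top ▸ Submodule.mem_top : y ∈ P.1.1 ⊔ P.1.2)
    have hwb : β w.1 b = 0 := by rw [hβ, sympBilin_apply]; exact P.2.2.2 _ w.2 _ hb
    rw [map_add, hwb, add_zero]
    rw [← hspan P s] at ha
    induction ha using Submodule.span_induction with
    | mem x hx =>
      obtain ⟨i, rfl⟩ := hx
      exact (Cfsg.Lib.Classical.alt_swap hA _ _).trans (neg_eq_zero.2 (congrFun hw i))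
    | zero => simp
    | add x y _ _ hx hy => simp [hx, hy]
    | smul a x _ hx => simp [hx]
  have hΘs : ∀ P s, Function.Surjective (Θ P s) := fun P s =>
    (LinearMap.injective_iff_surjective_of_finrank_eq_finrank (by rw [(hdim P).2, finrank_fin_fun])).1 (hΘi P s)
  choose b hb using fun (x : Σ P, S P) (j : Fin d) => hΘs x.1 x.2 (Pi.single j 1)
  have hb' : ∀ (x : Σ P, S P) i j, β (x.2.1 i : Fin d ⊕ Fin d → F) (b x j).1 = if i = j then 1 else 0 := fun x i j => by
    have := congrFun (hb x j) i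
    rw [Pi.single_apply] at this
    exact this
  let G : (Σ P, S P) → FrameCount.Frames β (-1) (fun _ => True) ⊤ d := fun x =>
    ⟨Sum.elim (fun i => (x.2.1 i : Fin d ⊕ Fin d → F)) (fun j => (b x j).1), fun _ => ⟨Submodule.mem_top, trivial⟩, fun u v => by
      rcases u with i | i <;> rcases v with j | j <;> simp only [Sum.elim_inl, Sum.elim_inr, FrameCount.gram]
      · rw [hβ, sympBilin_apply]; exact x.1.2.2.1 _ (x.2.1 i).2 _ (x.2.1 j).2
      · exact hb' x i j
      · refine (Cfsg.Lib.Classical.alt_swap hA _ _).trans ?_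
        rw [hb']
        rcases eq_or_ne i j with rfl | h
        · simp
        · simp [h, Ne.symm h]
      · rw [hβ, sympBilin_apply]; exact x.1.2.2.2 _ (b x i).2 _ (b x j).2⟩
  have hbspan : ∀ x : (Σ P, S P), Submodule.span F (Set.range fun j => (b x j).1) = x.1.1.2 := fun x => by
    have hli : LinearIndependent F (b x) := LinearIndependent.of_comp (Θ x.1 x.2) (by
      rw [show (Θ x.1 x.2) ∘ b x = fun j => Pi.single j (1 : F) from funext fun j => hb x j]
      convert (Pi.basisFun F (Fin d)).linearIndependent using 1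
      funext j
      rw [Pi.basisFun_apply])
    refine Submodule.eq_of_le_of_finrank_eq (Submodule.span_le.2 ?_) ?_
    · rintro _ ⟨i, rfl⟩; exact (b x i).2
    · rw [finrank_span_eq_card (show LinearIndependent F (fun j => (b x j).1) from hli.map' _ x.1.1.2.ker_subtype), Fintype.card_fin, (hdim x.1).2]
  refine Nat.card_congr (Equiv.ofBijective G ⟨fun x y h => ?_, fun p => ?_⟩)
  · have h1 : (fun i => (x.2.1 i : Fin d ⊕ Fin d → F)) = fun i => (y.2.1 i : Fin d ⊕ Fin d → F) :=
      funext fun i => congrFun (congrArg Subtype.val h) (Sum.inl i)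
    have h2 : (fun i => (b x i).1) = fun i => (b y i).1 :=
      funext fun i => congrFun (congrArg Subtype.val h) (Sum.inr i)
    have hP : x.1 = y.1 := Subtype.ext (Prod.ext (by rw [← hspan x.1 x.2, ← hspan y.1 y.2, h1])
      (by rw [← hbspan x, ← hbspan y, h2]))
    obtain ⟨P, s⟩ := x
    obtain ⟨P', s'⟩ := y
    obtain rfl : P = P' := hP
    exact congrArg _ (Subtype.ext (funext fun i => Subtype.ext (congrFun h1 i)))
  · have hli := FrameCount.linearIndependent_frame (neg_ne_zero.2 one_ne_zero) p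
    have hlia := hli.comp Sum.inl Sum.inl_injective
    have hlib := hli.comp Sum.inr Sum.inr_injective
    have hz : ∀ (f : Fin d → Fin d ⊕ Fin d), (∀ i j, FrameCount.gram (-1 : F) (f i) (f j) = 0) →
        ∀ u ∈ Submodule.span F (Set.range (p.1 ∘ f)), ∀ v ∈ Submodule.span F (Set.range (p.1 ∘ f)), Cfsg.sympForm d F u v = 0 := by
      intro f hf u hu v hv
      rw [← sympBilin_apply]
      induction hu using Submodule.span_induction with
      | mem u hu =>
        obtain ⟨i, rfl⟩ := hu
        induction hv using Submodule.span_induction with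
        | mem v hv => obtain ⟨j, rfl⟩ := hv; exact (p.2.2 _ _).trans (hf i j)
        | zero => simp
        | add a b _ _ ha hb => rw [map_add, ha, hb, add_zero]
        | smul a x _ hx => rw [map_smul, hx, smul_zero]
      | zero => simp
      | add a b _ _ ha hb => simp [ha, hb]
      | smul a x _ hx => simp [hx]
    have hcompl : IsCompl (Submodule.span F (Set.range (p.1 ∘ Sum.inl))) (Submodule.span F (Set.range (p.1 ∘ Sum.inr))) := by
      refine ⟨hli.disjoint_span_image (s := Set.range Sum.inl) (t := Set.range Sum.inr)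
        (Set.isCompl_range_inl_range_inr.disjoint) |> fun h => by rwa [← Set.range_comp, ← Set.range_comp] at h, ?_⟩
      rw [codisjoint_iff, ← Submodule.span_union, Set.range_comp, Set.range_comp, ← Set.image_union,
        Set.range_inl_union_range_inr, Set.image_univ]
      exact hli.span_eq_top_of_card_eq_finrank' (by rw [hV]; simp [two_mul])
    let P : Pr := ⟨(Submodule.span F (Set.range (p.1 ∘ Sum.inl)), Submodule.span F (Set.range (p.1 ∘ Sum.inr))),
      hcompl, hz _ (fun i j => rfl), hz _ (fun i j => rfl)⟩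
    let s : S P := ⟨fun i => ⟨p.1 (Sum.inl i), Submodule.subset_span ⟨i, rfl⟩⟩,
      LinearIndependent.of_comp P.1.1.subtype hlia⟩
    refine ⟨⟨P, s⟩, Subtype.ext (funext fun u => ?_)⟩
    rcases u with i | i
    · rfl
    · have hmem : p.1 (Sum.inr i) ∈ P.1.2 := Submodule.subset_span ⟨i, rfl⟩
      exact congrArg Subtype.val (hΘi P s (a₁ := b ⟨P, s⟩ i) (a₂ := ⟨_, hmem⟩) (by
        refine (hb ⟨P, s⟩ i).trans ?_
        funext k
        rw [Pi.single_apply]
        exact (p.2.2 (Sum.inl k) (Sum.inr i)).symm))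

/-- A prime other than the characteristic dividing the number of polar pairs divides some `q ^ j + 1`. -/
theorem exists_dvd_of_polar_pairs (d : ℕ) {q : ℕ} (hq : Fintype.card F = q) (r : ℕ) (hr : r.Prime) (hrq : ¬ r ∣ q)
    (h : r ∣ Nat.card {P : Submodule F (Fin d ⊕ Fin d → F) × Submodule F (Fin d ⊕ Fin d → F) // IsCompl P.1 P.2 ∧
        (∀ u ∈ P.1, ∀ v ∈ P.1, Cfsg.sympForm d F u v = 0) ∧ (∀ u ∈ P.2, ∀ v ∈ P.2, Cfsg.sympForm d F u v = 0)}) :
    ∃ j, 1 ≤ j ∧ j ≤ d ∧ r ∣ q ^ j + 1 := by
  have hqpos : 1 < q := hq ▸ Fintype.one_lt_card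
  have hc := card_polar_pairs_mul d hq
  have h1 : ∏ i : Fin d, (q ^ d - q ^ (i : ℕ)) = (∏ i ∈ Finset.range d, q ^ i) * ∏ i ∈ Finset.range d, (q ^ (i + 1) - 1) := by
    rw [Fin.prod_univ_eq_prod_range (fun i => q ^ d - q ^ i) d, ← Finset.prod_range_reflect (fun i => q ^ (i + 1) - 1),
      ← Finset.prod_mul_distrib]
    refine Finset.prod_congr rfl fun i hi => ?_
    rw [Finset.mem_range] at hi
    rw [Nat.mul_sub, mul_one, ← pow_add, show i + (d - 1 - i + 1) = d by omega]
  rw [h1, Finset.prod_mul_distrib,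
    Finset.prod_congr rfl (fun i _ => (ClassicalOrders.sq_sub_one q (i + 1)).symm), Finset.prod_mul_distrib] at hc
  set A := ∏ i ∈ Finset.range d, (q ^ (i + 1) - 1)
  set B := ∏ i ∈ Finset.range d, (q ^ (i + 1) + 1)
  set C := ∏ i ∈ Finset.range d, q ^ (2 * i + 1)
  have hA0 : 0 < A := Finset.prod_pos fun i _ => Nat.sub_pos_of_lt (Nat.one_lt_pow (by omega) hqpos)
  have hd : r ∣ B * C := h.trans ⟨∏ i ∈ Finset.range d, q ^ i, Nat.eq_of_mul_eq_mul_left hA0 (by linarith)⟩
  rcases hr.dvd_mul.1 hd with h | h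
  · obtain ⟨i, hi, hi'⟩ := (Prime.dvd_finsetProd_iff hr.prime _).1 h
    exact ⟨i + 1, by omega, by simpa using hi, hi'⟩
  · obtain ⟨i, hi, hi'⟩ := (Prime.dvd_finsetProd_iff hr.prime _).1 h
    exact absurd (hr.dvd_of_dvd_pow hi') hrq

end Cfsg.Lib.Derange
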