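import Mathlib
import Cfsg.Prelude.Def_GeometricClasses
import Cfsg.Agent.Lib.Derange.Invariant

/-!
Normalisers of maximal subfields of a matrix algebra in prime degree, and elements with a cyclic vector whose
`n`-th power is trivial.
-/

set_option autoImplicit false

namespace Cfsg.Lib.Derange.SingerNorm

open Matrix Polynomial Module
open scoped MatrixGroups

variable {F : Type*} [Field F] {n : ℕ} {K : Subalgebra F (Matrix (Fin n) (Fin n) F)}

lemma inj (hK : Cfsg.Geo.IsFieldSubalgebra n K) {k : Matrix (Fin n) (Fin n) F} (hk : k ∈ K) {v : Fin n → F}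
    (hv : v ≠ 0) (h : k *ᵥ v = 0) : k = 0 := by
  by_contra hk0
  obtain ⟨y, hyK, hy⟩ := hK.inv k hk hk0
  refine hv ?_
  have h' : (y * k) *ᵥ v = 0 := by rw [← Matrix.mulVec_mulVec, h, Matrix.mulVec_zero]
  rwa [hK.comm y hyK k hk, hy, Matrix.one_mulVec] at h'

lemma orbit_equiv (hK : Cfsg.Geo.IsFieldSubalgebra n K) {v : Fin n → F} (hv : v ≠ 0) :
    ∃ e : K ≃ₗ[F] (Fin n → F), ∀ k : K, e k = (k : Matrix (Fin n) (Fin n) F) *ᵥ v := by
  let L : K →ₗ[F] (Fin n → F) :=
    { toFun := fun k => (k : Matrix (Fin n) (Fin n) F) *ᵥ v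
      map_add' := fun a b => by simp [Matrix.add_mulVec]
      map_smul' := fun c a => by simp [Matrix.smul_mulVec] }
  have hL : Function.Injective L := by
    rw [← LinearMap.ker_eq_bot, LinearMap.ker_eq_bot']
    exact fun k hk => Subtype.ext (inj hK k.2 hv hk)
  exact ⟨LinearEquiv.ofBijective L ⟨hL, (LinearMap.injective_iff_surjective_of_finrank_eq_finrank
    (by rw [hK.finrank_eq, Module.finrank_fin_fun F])).1 hL⟩, fun k => rfl⟩

lemma mem_of_commute [NeZero n] (hK : Cfsg.Geo.IsFieldSubalgebra n K) {M : Matrix (Fin n) (Fin n) F}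
    (hM : ∀ k ∈ K, M * k = k * M) : M ∈ K := by
  have hv : (Pi.single (0 : Fin n) (1 : F) : Fin n → F) ≠ 0 := by simp
  obtain ⟨e, he⟩ := orbit_equiv hK hv
  set v : Fin n → F := Pi.single (0 : Fin n) 1
  set a := e.symm (M *ᵥ v)
  have ha : (a : Matrix (Fin n) (Fin n) F) *ᵥ v = M *ᵥ v := by rw [← he, e.apply_symm_apply]
  have : M = (a : Matrix (Fin n) (Fin n) F) := by
    refine Matrix.toLin'.injective (LinearMap.ext fun w => ?_)
    obtain ⟨k, rfl⟩ := e.surjective w
    rw [Matrix.toLin'_apply, Matrix.toLin'_apply, he, Matrix.mulVec_mulVec, Matrix.mulVec_mulVec, hM k k.2,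
      hK.comm _ a.2 _ k.2, ← Matrix.mulVec_mulVec, ← Matrix.mulVec_mulVec, ha]
  exact this ▸ a.2

/-- An element of the normaliser with scalar `n`-th power lies in the field or satisfies no polynomial of degree
below `n`. -/
theorem mem_or_indep (hn : n.Prime) (hK : Cfsg.Geo.IsFieldSubalgebra n K) {h : GL (Fin n) F}
    (hh : h ∈ Cfsg.Geo.subalgebraNormalizer K) {z : F}
    (hz : (h : Matrix (Fin n) (Fin n) F) ^ n = z • (1 : Matrix (Fin n) (Fin n) F)) :
    (h : Matrix (Fin n) (Fin n) F) ∈ K ∨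
      ∀ P : F[X], P.natDegree < n → aeval (h : Matrix (Fin n) (Fin n) F) P = 0 → P = 0 := by
  classical
  haveI : NeZero n := ⟨hn.ne_zero⟩
  refine or_iff_not_imp_left.2 fun hnK P hP hPh => ?_
  letI : CommRing K := { (inferInstance : Ring K) with mul_comm := fun a b => Subtype.ext (hK.comm a a.2 b b.2) }
  haveI : Nontrivial K := Module.nontrivial_of_finrank_pos (R := F) (by rw [hK.finrank_eq]; exact hn.pos)
  haveI : NoZeroDivisors K := ⟨fun {a b} hab => by
    by_cases ha : a = 0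
    · exact Or.inl ha
    · obtain ⟨y, hyK, hy⟩ := hK.inv a a.2 (fun e => ha (Subtype.ext e))
      refine Or.inr ?_
      have h1 : (⟨y, hyK⟩ : K) * a = 1 := by rw [mul_comm]; exact Subtype.ext hy
      calc b = (⟨y, hyK⟩ : K) * a * b := by rw [h1, one_mul]
        _ = 0 := by rw [mul_assoc, hab, mul_zero]⟩
  haveI : IsDomain K := NoZeroDivisors.to_isDomain K
  have hpow : ∀ i : ℕ, ∀ k : Matrix (Fin n) (Fin n) F, k ∈ K →
      ((h ^ i : GL (Fin n) F) : Matrix (Fin n) (Fin n) F) * k * (((h ^ i)⁻¹ : GL (Fin n) F) : Matrix (Fin n) (Fin n) F) ∈ K :=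
    fun i k hk => ((Subgroup.pow_mem _ hh i) k).1 hk
  let s : ℕ → (K →* K) := fun i =>
    { toFun := fun k => ⟨_, hpow i k k.2⟩
      map_one' := Subtype.ext (by simp)
      map_mul' := fun a b => Subtype.ext (by simp [mul_assoc]) }
  have hs : ∀ i (k : K), ((h ^ i : GL (Fin n) F) : Matrix (Fin n) (Fin n) F) * (k : Matrix (Fin n) (Fin n) F) =
      ((s i k : K) : Matrix (Fin n) (Fin n) F) * ((h ^ i : GL (Fin n) F) : Matrix (Fin n) (Fin n) F) := fun i k => by
    show _ = _ * _ * _ * _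
    rw [Matrix.mul_assoc _ _ ((h ^ i : GL (Fin n) F) : Matrix (Fin n) (Fin n) F), Units.inv_mul, Matrix.mul_one]
  have hz0 : z ≠ 0 := fun e => by
    rw [e, zero_smul, ← Units.val_pow_eq_pow_val] at hz
    exact Units.ne_zero _ hz
  have hinj : Function.Injective fun i : Fin n => s i := by
    intro i j hij
    by_contra hne
    wlog hlt : i < j generalizing i j
    · exact this hij.symm (Ne.symm hne) (lt_of_le_of_ne (not_lt.1 hlt) (Ne.symm hne))
    obtain ⟨d, hd0, hd⟩ : ∃ d, 0 < d ∧ (j : ℕ) = i + d := ⟨j - i, by simp only [Fin.lt_def] at hlt; omega, by simp only [Fin.lt_def] at hlt; omega⟩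
    have hcomm : ∀ k ∈ K, ((h ^ d : GL (Fin n) F) : Matrix (Fin n) (Fin n) F) * k = k * ((h ^ d : GL (Fin n) F) : Matrix (Fin n) (Fin n) F) := by
      intro k hk
      have e : ((s i ⟨k, hk⟩ : K) : Matrix (Fin n) (Fin n) F) = (s j ⟨k, hk⟩ : K) := by
        rw [show s i = s j from hij]
      have e1 := hs j ⟨k, hk⟩
      rw [← e, hd, pow_add, Units.val_mul, ← Matrix.mul_assoc _ _ ((h ^ d : GL (Fin n) F) : Matrix (Fin n) (Fin n) F),
        ← hs i ⟨k, hk⟩, Matrix.mul_assoc, Matrix.mul_assoc] at e1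
      exact (Units.mul_right_inj (h ^ (i : ℕ))).1 e1
    have hdK := mem_of_commute hK hcomm
    obtain ⟨a, -, ha⟩ := Nat.exists_mul_mod_eq_one_of_coprime
      (Nat.Coprime.symm ((Nat.Prime.coprime_iff_not_dvd hn).2 (fun hdvd => by
        have := Nat.le_of_dvd hd0 hdvd; have := j.isLt; omega))) hn.one_lt
    refine hnK ?_
    have e : (((h ^ d : GL (Fin n) F) : Matrix (Fin n) (Fin n) F)) ^ a = (z ^ (d * a / n)) • (h : Matrix (Fin n) (Fin n) F) := by
      rw [Units.val_pow_eq_pow_val, ← pow_mul]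
      conv_lhs => rw [← Nat.div_add_mod (d * a) n, ha]
      rw [pow_succ, pow_mul, hz, _root_.smul_pow, one_pow, Matrix.smul_mul, Matrix.one_mul]
    have := K.smul_mem (K.pow_mem hdK a) (z ^ (d * a / n))⁻¹
    rwa [e, smul_smul, inv_mul_cancel₀ (pow_ne_zero _ hz0), one_smul] at this
  have hli := (linearIndependent_monoidHom K K).comp _ hinj
  have hv : (Pi.single (0 : Fin n) (1 : F) : Fin n → F) ≠ 0 := by simp
  obtain ⟨e, he⟩ := orbit_equiv hK hv
  set v : Fin n → F := Pi.single (0 : Fin n) 1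
  let b : ℕ → K := fun i => e.symm (((h ^ i : GL (Fin n) F) : Matrix (Fin n) (Fin n) F) *ᵥ v)
  have hb : ∀ i, b i ≠ 0 := fun i hb => by
    have h0 : ((h ^ i : GL (Fin n) F) : Matrix (Fin n) (Fin n) F) *ᵥ v = 0 := e.symm.map_eq_zero_iff.1 hb
    refine hv ?_
    have := congrArg (fun w => (((h ^ i)⁻¹ : GL (Fin n) F) : Matrix (Fin n) (Fin n) F) *ᵥ w) h0
    simpa [Matrix.mulVec_mulVec] using this
  have hsum : ∀ i : Fin n, P.coeff i • b i = 0 := by
    refine Fintype.linearIndependent_iff.1 hli (fun i => P.coeff i • b i) (funext fun k => ?_)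
    have h0 : (∑ i : Fin n, P.coeff i • ((h : Matrix (Fin n) (Fin n) F) ^ (i : ℕ))) *ᵥ ((k : Matrix (Fin n) (Fin n) F) *ᵥ v) = 0 := by
      rw [Fin.sum_univ_eq_sum_range (fun i => P.coeff i • ((h : Matrix (Fin n) (Fin n) F) ^ i)), ← aeval_eq_sum_range' hP, hPh,
        Matrix.zero_mulVec]
    refine e.injective ?_
    simp only [Pi.zero_apply, map_zero]
    rw [← h0, he, Finset.sum_apply]
    simp only [Function.comp_apply, Pi.smul_apply, smul_eq_mul]
    rw [AddSubmonoidClass.coe_finset_sum, Matrix.sum_mulVec, Matrix.sum_mulVec]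
    refine Finset.sum_congr rfl fun i _ => ?_
    have hbi : ((b i : K) : Matrix (Fin n) (Fin n) F) *ᵥ v = ((h ^ (i : ℕ) : GL (Fin n) F) : Matrix (Fin n) (Fin n) F) *ᵥ v := by
      rw [← he, e.apply_symm_apply]
    rw [mul_comm (P.coeff i • b i), MulMemClass.coe_mul, SetLike.val_smul, Matrix.mul_smul, Matrix.smul_mulVec,
      Matrix.smul_mulVec, ← Matrix.mulVec_mulVec, hbi, Matrix.mulVec_mulVec, ← hs, Units.val_pow_eq_pow_val, Matrix.mulVec_mulVec]
  refine Polynomial.ext fun i => ?_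
  rw [Polynomial.coeff_zero]
  by_cases hi : i < n
  · exact (smul_eq_zero.1 (hsum ⟨i, hi⟩)).resolve_right (hb i)
  · exact Polynomial.coeff_eq_zero_of_natDegree_lt (by omega)

/-- An element with scalar power, an eigenvalue in the ground field and a short polynomial is not conjugate into
the normaliser. -/
theorem not_conj (hn : n.Prime) (hK : Cfsg.Geo.IsFieldSubalgebra n K) (x P : Matrix.SpecialLinearGroup (Fin n) F)
    (hP : (Matrix.SpecialLinearGroup.toGL (P⁻¹ * x * P)) ∈ Cfsg.Geo.subalgebraNormalizer K) {z : F}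
    (hz : (x : Matrix (Fin n) (Fin n) F) ^ n = z • (1 : Matrix (Fin n) (Fin n) F))
    (hns : ∀ c : F, (x : Matrix (Fin n) (Fin n) F) ≠ c • 1) {s : F} {w : Fin n → F} (hw : w ≠ 0)
    (hs : (x : Matrix (Fin n) (Fin n) F) *ᵥ w = s • w) {f : F[X]} (hf0 : f ≠ 0) (hf : f.natDegree < n)
    (hfx : aeval (x : Matrix (Fin n) (Fin n) F) f = 0) : False := by
  set y := (P⁻¹ * x * P : Matrix.SpecialLinearGroup (Fin n) F) with hy
  let u : GL (Fin n) F := Matrix.SpecialLinearGroup.toGL P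
  let φ : Matrix (Fin n) (Fin n) F →ₐ[F] Matrix (Fin n) (Fin n) F :=
    AlgHom.ofLinearMap ((LinearMap.mulLeft F ((u⁻¹ : GL (Fin n) F) : Matrix (Fin n) (Fin n) F)).comp
      (LinearMap.mulRight F (u : Matrix (Fin n) (Fin n) F))) (by simp) (fun a b => by
        simp only [LinearMap.comp_apply, LinearMap.mulRight_apply, LinearMap.mulLeft_apply]
        simp [mul_assoc])
  have hyφ : φ (x : Matrix (Fin n) (Fin n) F) = (y : Matrix (Fin n) (Fin n) F) := by
    show ((u⁻¹ : GL (Fin n) F) : Matrix (Fin n) (Fin n) F) * ((x : Matrix (Fin n) (Fin n) F) * (u : Matrix (Fin n) (Fin n) F)) = _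
    rw [← Matrix.mul_assoc, show u⁻¹ = Matrix.SpecialLinearGroup.toGL (P⁻¹) from (map_inv _ _).symm]
    rfl
  have hyn : ((Matrix.SpecialLinearGroup.toGL y : GL (Fin n) F) : Matrix (Fin n) (Fin n) F) ^ n = z • 1 := by
    show (y : Matrix (Fin n) (Fin n) F) ^ n = _
    rw [← hyφ, ← map_pow, hz, map_smul, map_one]
  rcases mem_or_indep hn hK hP hyn with h | h
  · let w' : Fin n → F := ((u⁻¹ : GL (Fin n) F) : Matrix (Fin n) (Fin n) F) *ᵥ w
    have hw' : w' ≠ 0 := fun e => hw (by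
      have := congrArg (fun v => (u : Matrix (Fin n) (Fin n) F) *ᵥ v) e
      simpa [w', Matrix.mulVec_mulVec] using this)
    have h1 : (y : Matrix (Fin n) (Fin n) F) - s • 1 = 0 := by
      refine inj hK (K.sub_mem h (K.smul_mem K.one_mem s)) hw' ?_
      rw [← hyφ, Matrix.sub_mulVec, Matrix.smul_mulVec, Matrix.one_mulVec, sub_eq_zero]
      show (((u⁻¹ : GL (Fin n) F) : Matrix (Fin n) (Fin n) F) * ((x : Matrix (Fin n) (Fin n) F) * (u : Matrix (Fin n) (Fin n) F))) *ᵥ w' = _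
      rw [← Matrix.mulVec_mulVec, ← Matrix.mulVec_mulVec, show (u : Matrix (Fin n) (Fin n) F) *ᵥ w' = w by
        simp [w', Matrix.mulVec_mulVec], hs, Matrix.mulVec_smul]
    refine hns s ?_
    have h2 : φ ((x : Matrix (Fin n) (Fin n) F) - s • 1) = 0 := by rw [map_sub, map_smul, map_one, hyφ, h1]
    have h3 := congrArg (fun M => (u : Matrix (Fin n) (Fin n) F) * M * ((u⁻¹ : GL (Fin n) F) : Matrix (Fin n) (Fin n) F)) h2
    simp [φ, mul_assoc, sub_eq_zero] at h3
    exact h3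
  · refine hf0 (h f hf ?_)
    show aeval (y : Matrix (Fin n) (Fin n) F) f = 0
    rw [← hyφ, aeval_algHom_apply, hfx, map_zero]

/-- The normaliser contains an element of determinant one and order `n` outside the field. -/
theorem exists_gal [Fintype F] (hn : n.Prime) (hn2 : n ≠ 2) (hK : Cfsg.Geo.IsFieldSubalgebra n K) :
    ∃ h : Matrix.SpecialLinearGroup (Fin n) F, Matrix.SpecialLinearGroup.toGL h ∈ Cfsg.Geo.subalgebraNormalizer K ∧
      (h : Matrix (Fin n) (Fin n) F) ^ n = 1 ∧ (∀ c : F, (h : Matrix (Fin n) (Fin n) F) ≠ c • 1) := by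
  classical
  haveI : NeZero n := ⟨hn.ne_zero⟩
  haveI : Nontrivial K := Module.nontrivial_of_finrank_pos (R := F) (by rw [hK.finrank_eq]; exact hn.pos)
  have hF : IsField K :=
    { exists_pair_ne := exists_pair_ne K
      mul_comm := fun a b => Subtype.ext (hK.comm a a.2 b b.2)
      mul_inv_cancel := fun {a} ha => by
        obtain ⟨y, hyK, hy⟩ := hK.inv a a.2 (fun e => ha (Subtype.ext e))
        exact ⟨⟨y, hyK⟩, Subtype.ext hy⟩ }
  letI := hF.toField
  haveI : Finite K := Module.finite_of_finite F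
  set σ := FiniteField.frobeniusAlgEquivOfAlgebraic F K with hσ
  have ho : orderOf σ = n := by rw [hσ, FiniteField.orderOf_frobeniusAlgEquivOfAlgebraic, hK.finrank_eq]
  have hv : (Pi.single (0 : Fin n) (1 : F) : Fin n → F) ≠ 0 := by simp
  obtain ⟨e, he⟩ := orbit_equiv hK hv
  let T : (Fin n → F) →ₗ[F] (Fin n → F) := e.toLinearMap.comp (σ.toLinearMap.comp e.symm.toLinearMap)
  have hTe : ∀ a, T (e a) = e (σ a) := fun a => by simp [T]
  have hTpow : ∀ (j : ℕ) a, (T ^ j) (e a) = e ((σ ^ j) a) := fun j => by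
    induction j with
    | zero => simp
    | succ j ih => intro a; rw [pow_succ, pow_succ, Module.End.mul_apply, hTe, ih]; rfl
  set M := LinearMap.toMatrix' T
  have hMn : M ^ n = 1 := by
    have h1 : T ^ n = 1 := LinearMap.ext fun w => by
      obtain ⟨a, rfl⟩ := e.surjective w
      rw [hTpow, show σ ^ n = 1 from orderOf_dvd_iff_pow_eq_one.1 (dvd_of_eq ho)]; rfl
    show LinearMap.toMatrixAlgEquiv' T ^ n = 1
    rw [← map_pow, h1, map_one]
  have hd0 : M.det ≠ 0 := fun e => by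
    have h := congrArg Matrix.det hMn
    rw [Matrix.det_pow, Matrix.det_one, e, zero_pow hn.ne_zero] at h
    exact zero_ne_one h
  have hconj : ∀ k : K, M * (k : Matrix (Fin n) (Fin n) F) = ((σ k : K) : Matrix (Fin n) (Fin n) F) * M := fun k => by
    refine Matrix.toLin'.injective (LinearMap.ext fun w => ?_)
    obtain ⟨a, rfl⟩ := e.surjective w
    rw [Matrix.toLin'_mul, Matrix.toLin'_mul, Matrix.toLin'_toMatrix']
    show T ((k : Matrix (Fin n) (Fin n) F) *ᵥ e a) = ((σ k : K) : Matrix (Fin n) (Fin n) F) *ᵥ T (e a)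
    rw [hTe, he a, Matrix.mulVec_mulVec,
      show (k : Matrix (Fin n) (Fin n) F) * (a : Matrix (Fin n) (Fin n) F) = ((k * a : K) : Matrix (Fin n) (Fin n) F) from rfl,
      ← he, hTe, map_mul, he, he, Matrix.mulVec_mulVec]
    rfl
  let g : GL (Fin n) F := Matrix.GeneralLinearGroup.mkOfDetNeZero M hd0
  have hgn : g ∈ Cfsg.Geo.subalgebraNormalizer K := by
    intro k
    have key : ∀ c : K, M * (c : Matrix (Fin n) (Fin n) F) * ((g⁻¹ : GL (Fin n) F) : Matrix (Fin n) (Fin n) F) =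
        ((σ c : K) : Matrix (Fin n) (Fin n) F) := fun c => by
      rw [hconj, Matrix.mul_assoc, show M = (g : Matrix (Fin n) (Fin n) F) from rfl, Units.mul_inv, Matrix.mul_one]
    constructor
    · intro hk
      have e := key ⟨k, hk⟩
      show M * k * _ ∈ K
      rw [e]
      exact (σ ⟨k, hk⟩).2
    · intro hk
      obtain ⟨c, hc⟩ := σ.surjective ⟨_, hk⟩
      have := key c
      rw [hc] at this
      have h2 := (Units.mul_right_inj g).1 ((Units.mul_left_inj g⁻¹).1 this)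
      exact h2 ▸ c.2
  have hMK : M ∉ K := fun hMK => by
    have hσ1 : σ = 1 := AlgEquiv.ext fun k => by
      refine Subtype.ext ?_
      have := hconj k
      rw [hK.comm M hMK _ k.2] at this
      exact ((Units.mul_left_inj g).1 this).symm
    rw [hσ1, orderOf_one] at ho
    exact hn.one_lt.ne ho
  have hdet : M.det = 1 := by
    have hind := (mem_or_indep hn hK hgn (z := 1) (by rw [one_smul]; exact hMn)).resolve_left hMK
    have hmon : (X ^ n - C 1 : F[X]).Monic := monic_X_pow_sub_C 1 hn.ne_zero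
    have hchar : M.charpoly = X ^ n - C 1 := by
      rw [← sub_eq_zero]
      refine hind _ ?_ ?_
      · have hdeg := Polynomial.degree_sub_lt (p := M.charpoly) (q := X ^ n - C 1)
          (by rw [Matrix.charpoly_degree_eq_dim, Fintype.card_fin, degree_X_pow_sub_C hn.pos]) (Matrix.charpoly_monic M).ne_zero
          (by rw [(Matrix.charpoly_monic M).leadingCoeff, hmon.leadingCoeff])
        rw [Matrix.charpoly_degree_eq_dim, Fintype.card_fin] at hdeg
        by_cases h0 : M.charpoly - (X ^ n - C 1) = 0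
        · rw [h0, natDegree_zero]; exact hn.pos
        · exact (natDegree_lt_iff_degree_lt h0).2 hdeg
      · show aeval M _ = 0
        rw [map_sub, Matrix.aeval_self_charpoly, map_sub, map_pow, aeval_X, aeval_C, map_one, hMn, sub_self, sub_zero]
    rw [Matrix.det_eq_sign_charpoly_coeff, hchar, Fintype.card_fin, (hn.odd_of_ne_two hn2).neg_one_pow]
    simp [coeff_X_pow, hn.ne_zero.symm]
  refine ⟨⟨M, hdet⟩, ?_, hMn, fun c hc => hMK ?_⟩
  · rwa [show Matrix.SpecialLinearGroup.toGL ⟨M, hdet⟩ = g from Units.ext rfl]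
  · rw [show M = c • 1 from hc]
    exact K.smul_mem K.one_mem c

variable [Fintype F]

/-- Two elements with trivial `n`-th power and cyclic vectors are conjugate in the special linear group. -/
theorem conj_cyclic (hnF : (n : F) ≠ 0) (x₁ x₂ : Matrix.SpecialLinearGroup (Fin n) F)
    (h₁ : (x₁ : Matrix (Fin n) (Fin n) F) ^ n = 1) (h₂ : (x₂ : Matrix (Fin n) (Fin n) F) ^ n = 1)
    (v₁ v₂ : Fin n → F) (hv₁ : LinearIndependent F fun j : Fin n => ((x₁ : Matrix (Fin n) (Fin n) F) ^ (j : ℕ)) *ᵥ v₁)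
    (hv₂ : LinearIndependent F fun j : Fin n => ((x₂ : Matrix (Fin n) (Fin n) F) ^ (j : ℕ)) *ᵥ v₂) :
    ∃ P : Matrix.SpecialLinearGroup (Fin n) F, P⁻¹ * x₁ * P = x₂ := by
  classical
  haveI : NeZero n := ⟨fun e => hnF (by simp [e])⟩
  let Z : Matrix (Fin n) (Fin n) F := Matrix.of fun i j => if i = j + 1 then 1 else 0
  have key : ∀ (x : Matrix (Fin n) (Fin n) F) (v : Fin n → F), x ^ n = 1 →
      LinearIndependent F (fun j : Fin n => (x ^ (j : ℕ)) *ᵥ v) → ∃ Φ : Matrix (Fin n) (Fin n) F, IsUnit Φ ∧ x * Φ = Φ * Z := by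
    intro x v hx hv
    refine ⟨Matrix.of fun i (j : Fin n) => ((x ^ (j : ℕ)) *ᵥ v) i, Matrix.linearIndependent_cols_iff_isUnit.1 hv, ?_⟩
    ext i j
    have hR : ∀ g : Fin n → F, (∑ l, g l * Z l j) = g (j + 1) := fun g => by simp [Z]
    rw [Matrix.mul_apply, Matrix.mul_apply]
    simp only [Matrix.of_apply]
    rw [hR (fun l => ((x ^ (l : ℕ)) *ᵥ v) i), Fin.val_add, Fin.val_one', Nat.add_mod_mod, ← pow_eq_pow_mod _ hx, pow_succ', ← Matrix.mulVec_mulVec]
    show _ = (x *ᵥ ((x ^ (j : ℕ)) *ᵥ v)) i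
    rfl
  obtain ⟨Φ₁, hu₁, hΦ₁⟩ := key _ v₁ h₁ hv₁
  obtain ⟨Φ₂, hu₂, hΦ₂⟩ := key _ v₂ h₂ hv₂
  have hd₁ : Φ₁.det ≠ 0 := (Matrix.isUnit_iff_isUnit_det _).1 hu₁ |>.ne_zero
  have hd₂ : Φ₂.det ≠ 0 := (Matrix.isUnit_iff_isUnit_det _).1 hu₂ |>.ne_zero
  set δ := Φ₂.det / Φ₁.det
  let C : Matrix (Fin n) (Fin n) F :=
    1 + Matrix.replicateCol Unit (fun _ => (δ - 1) / (n : F)) * Matrix.replicateRow Unit (fun _ => (1 : F))
  have hC : C.det = δ := by
    rw [Matrix.det_one_add_replicateCol_mul_replicateRow]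
    simp only [dotProduct, one_mul, Finset.sum_const, Finset.card_univ, Fintype.card_fin, nsmul_eq_mul]
    field_simp
    ring
  have hCZ : C * Z = Z * C := by
    have hJ : ∀ i j : Fin n, (Matrix.replicateCol Unit (fun _ : Fin n => (δ - 1) / (n : F)) * Matrix.replicateRow Unit (fun _ : Fin n => (1 : F))) i j = (δ - 1) / (n : F) :=
      fun i j => by simp [Matrix.mul_apply]
    simp only [C, Matrix.add_mul, Matrix.mul_add, Matrix.one_mul, Matrix.mul_one]
    refine congrArg (Z + ·) ?_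
    ext i j
    rw [Matrix.mul_apply (M := _ * _), Matrix.mul_apply (M := Z)]
    simp only [hJ]
    have h1 : (∑ l, Z l j) = 1 := by simp [Z]
    have h2 : (∑ l, Z i l) = 1 := by simp [Z, ← sub_eq_iff_eq_add]
    rw [← Finset.mul_sum, ← Finset.sum_mul, h1, h2, mul_one, one_mul]
  have hdet : (Φ₁ * C * Φ₂⁻¹).det = 1 := by
    rw [Matrix.det_mul, Matrix.det_mul, hC, Matrix.det_nonsing_inv, Ring.inverse_eq_inv]
    simp only [δ]; field_simp
  let P : Matrix.SpecialLinearGroup (Fin n) F := ⟨_, hdet⟩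
  refine ⟨P, ?_⟩
  rw [mul_assoc, inv_mul_eq_iff_eq_mul]
  refine Subtype.ext ?_
  show (x₁ : Matrix (Fin n) (Fin n) F) * (Φ₁ * C * Φ₂⁻¹) = Φ₁ * C * Φ₂⁻¹ * (x₂ : Matrix (Fin n) (Fin n) F)
  have h2' : Φ₂⁻¹ * (x₂ : Matrix (Fin n) (Fin n) F) = Z * Φ₂⁻¹ := by
    have hu := (Matrix.isUnit_iff_isUnit_det _).1 hu₂
    calc Φ₂⁻¹ * (x₂ : Matrix (Fin n) (Fin n) F) = Φ₂⁻¹ * ((x₂ : Matrix (Fin n) (Fin n) F) * Φ₂) * Φ₂⁻¹ := by
          rw [Matrix.mul_assoc, Matrix.mul_assoc, Matrix.mul_nonsing_inv _ hu, Matrix.mul_one]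
      _ = Z * Φ₂⁻¹ := by rw [hΦ₂, ← Matrix.mul_assoc Φ₂⁻¹, Matrix.nonsing_inv_mul _ hu, Matrix.one_mul]
  rw [← Matrix.mul_assoc, ← Matrix.mul_assoc, hΦ₁, Matrix.mul_assoc Φ₁, ← hCZ, Matrix.mul_assoc (Φ₁ * C) Φ₂⁻¹, h2']
  simp only [Matrix.mul_assoc]

/-- When `q` has order `n - 1` modulo `n`, a nontrivial element with `n`-th power one has a cyclic vector. -/
theorem exists_cyclic {q : ℕ} (hq : Fintype.card F = q) [Fact n.Prime] (hn2 : n ≠ 2)
    (ho : orderOf (q : ZMod n) = n - 1) (hnF : (n : F) ≠ 0) (x : Matrix (Fin n) (Fin n) F) (hx : x ^ n = 1) (hx1 : x ≠ 1) :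
    ∃ v : Fin n → F, LinearIndependent F fun j : Fin n => (x ^ (j : ℕ)) *ᵥ v := by
  classical
  have hn3 : 3 ≤ n := by have := (Fact.out : n.Prime).two_le; omega
  have hq0 : (q : ZMod n) ≠ 0 := fun e => by
    rw [e, orderOf_zero] at ho
    omega
  set T := Matrix.toLinAlgEquiv' x with hTdef
  have hT : T ^ n = 1 := by rw [hTdef, ← map_pow, hx, map_one]
  have hpowv : ∀ (j : ℕ) v, (T ^ j) v = (x ^ j) *ᵥ v := fun j v => by
    rw [hTdef, ← map_pow, Matrix.toLinAlgEquiv'_apply]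
  have hd : ∀ W : Submodule F (Fin n → F), W.map T ≤ W →
      ∃ c, finrank F W = finrank F (W ⊓ LinearMap.ker (T - 1) : Submodule F (Fin n → F)) + (n - 1) * c := fun W hW => by
    obtain ⟨c, hc⟩ := Cfsg.Lib.Derange.exists_dim hq n hq0 T hT W hW
    exact ⟨c, by rw [hc, ho]⟩
  obtain ⟨c, hc⟩ := hd ⊤ le_top
  rw [top_inf_eq, finrank_top, Module.finrank_fin_fun F] at hc
  have hc1 : c = 1 := by
    rcases c with _ | _ | c
    · exfalso
      rw [mul_zero, add_zero] at hc
      have hker : LinearMap.ker (T - 1) = ⊤ := Submodule.eq_top_of_finrank_eq (by rw [Module.finrank_fin_fun F, ← hc])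
      refine hx1 (Matrix.toLinAlgEquiv'.injective ?_)
      rw [map_one, ← sub_eq_zero]
      exact LinearMap.ker_eq_top.1 hker
    · rfl
    · nlinarith [Nat.sub_add_cancel (show 1 ≤ n by omega)]
  subst hc1
  have hf : finrank F (LinearMap.ker (T - 1)) = 1 := by omega
  set S : Module.End F (Fin n → F) := ∑ i ∈ Finset.range n, T ^ i
  have hTS : (T - 1) * S = 0 := by rw [mul_geom_sum, hT, sub_self]
  have hST : S * (T - 1) = 0 := by rw [geom_sum_mul, hT, sub_self]
  have hSfix : ∀ w, T w = w → S w = (n : F) • w := fun w hw => by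
    have : ∀ i : ℕ, (T ^ i) w = w := fun i => by induction i with
      | zero => simp
      | succ i ih => rw [pow_succ, Module.End.mul_apply, hw, ih]
    simp [S, this, Nat.cast_smul_eq_nsmul]
  obtain ⟨f₀, hf₀, hf₀0⟩ := Submodule.exists_mem_ne_zero_of_ne_bot (p := LinearMap.ker (T - 1))
    (fun e => by rw [e, finrank_bot] at hf; omega)
  have hTf : T f₀ = f₀ := sub_eq_zero.1 (by simpa using LinearMap.mem_ker.1 hf₀)
  obtain ⟨u, hu⟩ : ∃ u, (T - 1) u ≠ 0 := by
    by_contra hall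
    push Not at hall
    rw [show LinearMap.ker (T - 1) = ⊤ from eq_top_iff.2 fun w _ => LinearMap.mem_ker.2 (hall w), finrank_top,
      Module.finrank_fin_fun F] at hf
    omega
  set w := (T - 1) u
  have hSw : S w = 0 := by rw [← Module.End.mul_apply, hST]; rfl
  refine ⟨f₀ + w, ?_⟩
  set U := Submodule.span F (Set.range fun j : Fin n => (x ^ (j : ℕ)) *ᵥ (f₀ + w))
  have hUi : ∀ i : ℕ, (T ^ i) (f₀ + w) ∈ U := fun i =>
    Submodule.subset_span ⟨⟨i % n, Nat.mod_lt _ (by omega)⟩, by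
      show (x ^ (i % n)) *ᵥ (f₀ + w) = _
      rw [hpowv, ← pow_eq_pow_mod _ hx]⟩
  have hUT : U.map T ≤ U := by
    rw [Submodule.map_span, Submodule.span_le]
    rintro y ⟨y', ⟨j, rfl⟩, rfl⟩
    have := hUi ((j : ℕ) + 1)
    rw [pow_succ', Module.End.mul_apply, hpowv] at this
    exact this
  have hfU : f₀ ∈ U := by
    have h : S (f₀ + w) ∈ U := by rw [LinearMap.sum_apply]; exact Submodule.sum_mem _ fun i _ => hUi i
    rw [map_add, hSw, add_zero, hSfix _ hTf] at h
    simpa [smul_smul, inv_mul_cancel₀ hnF] using U.smul_mem (n : F)⁻¹ h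
  have hwU : w ∈ U := by
    have h := U.sub_mem (hUi 0) hfU
    simpa using h
  have hwnf : w ∉ LinearMap.ker (T - 1) := fun h => by
    have : T w = w := sub_eq_zero.1 (by simpa using LinearMap.mem_ker.1 h)
    rw [hSfix _ this] at hSw
    exact hu ((smul_eq_zero.1 hSw).resolve_left hnF)
  have hUtop : U = ⊤ := by
    obtain ⟨c, hc'⟩ := hd U hUT
    have hle : LinearMap.ker (T - 1) ≤ U := by
      intro y hy
      obtain ⟨a, ha⟩ := (finrank_eq_one_iff_of_nonzero' (⟨f₀, hf₀⟩ : LinearMap.ker (T - 1)) (fun e => hf₀0 (congrArg Subtype.val e))).1 hf ⟨y, hy⟩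
      rw [show y = a • f₀ from (congrArg Subtype.val ha).symm]
      exact U.smul_mem a hfU
    rw [inf_eq_right.2 hle, hf] at hc'
    refine Submodule.eq_top_of_finrank_eq ?_
    have h2 : finrank F U ≤ n := by simpa using Submodule.finrank_le U
    have h3 : 1 < finrank F U := by
      rw [← hf]
      exact Submodule.finrank_lt_finrank_of_lt (lt_of_le_of_ne hle fun e => hwnf (e ▸ hwU))
    rcases c with _ | c
    · omega
    · rw [Module.finrank_fin_fun F, Nat.mul_succ] at *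
      omega
  exact linearIndependent_of_top_le_span_of_card_eq_finrank hUtop.ge (by simp)

end Cfsg.Lib.Derange.SingerNorm
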