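import Mathlib
import Cfsg.Agent.Lib.Classical.FormFn
import Cfsg.Agent.Lib.Classical.SymplecticMatrix
import Cfsg.Agent.Lib.Classical.FrameCount
import Cfsg.Agent.Lib.Classical.LinearOrders
import Cfsg.Agent.Lib.Classical.PSpAut.Basis

/-!
Primes dividing the index of the symplectic similitudes in the special linear group.
-/

set_option autoImplicit false

namespace Cfsg.Lib.Derange

open Matrix Module Cfsg.Lib.Classical

variable {F : Type*} [Field F] [Fintype F]

lemma prod_two_mul (g : ℕ → ℕ) : ∀ m : ℕ, ∏ j ∈ Finset.range (2 * m), g j =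
    (∏ i ∈ Finset.range m, g (2 * i)) * ∏ i ∈ Finset.range m, g (2 * i + 1)
  | 0 => by simp
  | m + 1 => by
    rw [show 2 * (m + 1) = 2 * m + 1 + 1 by ring, Finset.prod_range_succ, Finset.prod_range_succ,
      prod_two_mul g m, Finset.prod_range_succ, Finset.prod_range_succ]
    ring

theorem prime_dvd_index_symp {q : ℕ} (hq : Fintype.card F = q) (m : ℕ) (hm : 1 ≤ m)
    (f : (Fin (2 * m) → F) → (Fin (2 * m) → F) → F) (hf : Cfsg.Geo.IsSymplecticForm f)
    (r : ℕ) (hr : r.Prime)
    (hΩ : r ∣ ((Cfsg.Geo.similarityGroup f).comap (Matrix.SpecialLinearGroup.toGL :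
      Matrix.SpecialLinearGroup (Fin (2 * m)) F →* GL (Fin (2 * m)) F)).index) :
    r ∣ q ∨ ∃ i, 1 ≤ i ∧ i < m ∧ r ∣ q ^ (2 * i + 1) - 1 := by
  classical
  have hA := biForm_isAlt hf
  have hB := biForm_nondegenerate hf.bilinear hf.nondegenerate
  set B := biForm hf.bilinear with hBdef
  have hd : finrank F (Fin (2 * m) → F) = 2 * m := by simp
  set H := (Cfsg.Geo.similarityGroup f).comap (Matrix.SpecialLinearGroup.toGL :
      Matrix.SpecialLinearGroup (Fin (2 * m)) F →* GL (Fin (2 * m)) F) with hH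
  let S : Subgroup (Matrix.SpecialLinearGroup (Fin (2 * m)) F) :=
    (Witt.bilIso B).comap ((glEquiv (Fin (2 * m)) F).toMonoidHom.comp Matrix.SpecialLinearGroup.toGL)
  have hSH : S ≤ H := fun A hA' => ⟨1, fun u v => by
    rw [Units.val_one, one_mul]; exact hA' u v⟩
  -- the order of `S`
  obtain ⟨a, b, -, hab⟩ := PSpAut.exists_symp_family B hA m ⊤
    (fun w _ hw0 => by
      by_contra hc
      push Not at hc
      exact hw0 (hB.1 w fun y => hc y trivial)) (by rw [finrank_top, hd])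
  have hba : ∀ i j, B (a i) (b j) = -(if j = i then (1 : F) else 0) := fun i j => by
    rw [Cfsg.Lib.Classical.alt_swap hA (b j) (a i), (hab j i).2.2]
  let p₀ : FrameCount.Frames B (-1) (fun _ => True) ⊤ m :=
    ⟨Sum.elim b a, fun _ => ⟨Submodule.mem_top, trivial⟩, fun x y => by
      rcases x with i | i <;> rcases y with j | j <;>
        simp [FrameCount.gram, (hab i j).1, (hab i j).2.1, (hab i j).2.2, hba, eq_comm] <;>
        (split_ifs <;> simp)⟩
  have hS : Nat.card S = ∏ i ∈ Finset.range m, (q ^ (2 * (i + 1)) - 1) * q ^ (2 * i + 1) := by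
    rw [← FrameCount.card_frames_alt hq hA m ⊤ (FrameCount.ndOn_top hB) (by rw [finrank_top, hd]),
      ← FrameCount.card_bilIso hA hB p₀ hd]
    refine Nat.card_congr (Equiv.ofBijective (fun A => ⟨_, A.2⟩) ⟨?_, ?_⟩)
    · intro A A' h
      exact Subtype.ext (Matrix.SpecialLinearGroup.toGL_injective
        ((glEquiv _ F).injective (congrArg Subtype.val h)))
    · rintro ⟨g, hg⟩
      set G : GL (Fin (2 * m)) F := (glEquiv _ F).symm g with hG
      have hgx : ∀ x, (G : Matrix _ _ F) *ᵥ x = g x := fun x => glEquiv_symm_mulVec g x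
      have hdet := det_eq_one_of_isometry B hA hB G (fun x y => by rw [hgx, hgx]; exact hg x y)
      let A' : Matrix.SpecialLinearGroup (Fin (2 * m)) F :=
        ⟨(G : Matrix (Fin (2 * m)) (Fin (2 * m)) F), by
          simpa using congrArg Units.val hdet⟩
      have e : glEquiv _ F (Matrix.SpecialLinearGroup.toGL A') = g := by
        rw [show Matrix.SpecialLinearGroup.toGL A' = G from Units.ext rfl, hG, MulEquiv.apply_symm_apply]
      exact ⟨⟨A', by
        show glEquiv _ F (Matrix.SpecialLinearGroup.toGL A') ∈ Witt.bilIso B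
        rw [e]; exact hg⟩, Subtype.ext e⟩
  -- divisibility
  have h1 : H.index * Nat.card S ∣ Nat.card (Matrix.SpecialLinearGroup (Fin (2 * m)) F) := by
    rw [← H.index_mul_card]
    exact Nat.mul_dvd_mul_left _ (Subgroup.card_dvd_of_le hSH)
  have h2 := (Nat.mul_dvd_mul_right hΩ _).trans h1
  have h3 := Nat.mul_dvd_mul_left (Fintype.card F - 1) h2
  rw [LinearOrders.card_sl_mul (by omega), hq, hS] at h3
  have h4 : ∏ i : Fin (2 * m), (q ^ (2 * m) - q ^ (i : ℕ)) =
      (∏ i ∈ Finset.range (2 * m), q ^ i) * ∏ j ∈ Finset.range (2 * m), (q ^ (j + 1) - 1) := by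
    rw [Fin.prod_univ_eq_prod_range (fun i => q ^ (2 * m) - q ^ i) (2 * m),
      ← Finset.prod_range_reflect (fun j => q ^ (j + 1) - 1), ← Finset.prod_mul_distrib]
    refine Finset.prod_congr rfl fun i hi => ?_
    rw [Finset.mem_range] at hi
    rw [Nat.mul_sub, mul_one, ← pow_add, show i + (2 * m - 1 - i + 1) = 2 * m by omega]
  obtain ⟨k, rfl⟩ : ∃ k, m = k + 1 := ⟨m - 1, by omega⟩
  rw [h4, prod_two_mul (fun j => q ^ (j + 1) - 1), Finset.prod_mul_distrib] at h3
  simp only [show ∀ i, 2 * i + 1 + 1 = 2 * (i + 1) from fun i => by ring] at h3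
  rw [Finset.prod_range_succ' (fun i => q ^ (2 * i + 1) - 1), mul_zero, zero_add, pow_one] at h3
  have hq2 : 1 < q := hq ▸ Fintype.one_lt_card
  have hpos : ∀ j, 0 < q ^ (j + 1) - 1 := fun j => Nat.sub_pos_of_lt (Nat.one_lt_pow (by omega) hq2)
  set E := ∏ i ∈ Finset.range (k + 1), (q ^ (2 * (i + 1)) - 1)
  set O := ∏ i ∈ Finset.range k, (q ^ (2 * (i + 1) + 1) - 1)
  set A := ∏ i ∈ Finset.range (2 * (k + 1)), q ^ i
  set C := ∏ i ∈ Finset.range (k + 1), q ^ (2 * i + 1)
  have hc : 0 < (q - 1) * E := Nat.mul_pos (by omega)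
    (Finset.prod_pos fun i _ => hpos (2 * i + 1))
  have h5 : (q - 1) * E * (r * C) ∣ (q - 1) * E * (A * O) := by
    convert h3 using 1 <;> ring
  have h6 : r ∣ A * O := dvd_of_mul_right_dvd (Nat.dvd_of_mul_dvd_mul_left hc h5)
  rcases hr.dvd_mul.1 h6 with h | h
  · obtain ⟨i, -, hi⟩ := (Prime.dvd_finsetProd_iff hr.prime _).1 h
    exact Or.inl (hr.dvd_of_dvd_pow hi)
  · obtain ⟨i, hi, hi'⟩ := (Prime.dvd_finsetProd_iff hr.prime _).1 h
    exact Or.inr ⟨i + 1, by omega, by simpa using hi, hi'⟩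

end Cfsg.Lib.Derange
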